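import Mathlib
import Cfsg.Prelude.Def_Local
import Cfsg.Prelude.Def_Balance
import Cfsg.Agent.S1280
import Cfsg.Agent.S1282
import Cfsg.Agent.S0024
import Cfsg.Agent.S0025
import Cfsg.Agent.Lib.Helper1.Basic
import Cfsg.Agent.Lib.Helper1.Tools
import Cfsg.Agent.Lib.Helper22.Conj

/-!
Signalizer functors: basic lemmas on the family of a solvable signalizer functor and the
transitivity theorem (helper22).
-/

set_option autoImplicit false
set_option linter.unusedSectionVars false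

namespace Cfsg.Agent.Lib.Helper22

open Cfsg
open scoped Pointwise

universe u

section Signalizer

variable {G : Type u} [Group G] [Finite G] {p : ℕ} [Fact p.Prime] {A : Subgroup G}
  {θ : G → Subgroup G}

theorem elemAb_comm (hA : IsElementaryAbelian p A) : ∀ x ∈ A, ∀ y ∈ A, x * y = y * x := by
  intro x hx y hy
  have := hA.1.is_comm.comm (⟨x, hx⟩ : A) ⟨y, hy⟩
  exact congrArg Subtype.val this

theorem elemAb_isPGroup (hA : IsElementaryAbelian p A) : IsPGroup p A := by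
  intro g
  refine ⟨1, ?_⟩
  apply Subtype.ext
  rw [pow_one, Subgroup.coe_pow]
  exact hA.2 g.1 g.2

theorem elemAb_isSolvable (hA : IsElementaryAbelian p A) : Group.IsSolvable A :=
  Group.isSolvable_of_comm (fun a b => hA.1.is_comm.comm a b)

theorem elemAb_coprime (hA : IsElementaryAbelian p A) {L : Subgroup G} (hL : ¬ p ∣ Nat.card L) :
    (Nat.card A).Coprime (Nat.card L) := by
  have hp : p.Prime := Fact.out
  obtain ⟨n, hn⟩ := (elemAb_isPGroup hA).exists_card_eq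
  rw [hn]
  exact Nat.Coprime.pow_left n ((Nat.Prime.coprime_iff_not_dvd hp).mpr hL)

theorem le_normalizer_of_conj_mem {B U : Subgroup G} (h : ∀ b ∈ B, ∀ u ∈ U, b * u * b⁻¹ ∈ U) :
    B ≤ Subgroup.normalizer (U : Set G) := by
  intro b hb
  rw [Subgroup.mem_normalizer_iff]
  intro x
  constructor
  · exact h b hb x
  · intro hx
    have h1 := h b⁻¹ (B.inv_mem hb) _ hx
    have e : b⁻¹ * (b * x * b⁻¹) * b⁻¹⁻¹ = x := by group
    rwa [e] at h1

theorem conj_mem_of_le_normalizer {B U : Subgroup G} (h : B ≤ Subgroup.normalizer (U : Set G)) :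
    ∀ b ∈ B, ∀ u ∈ U, b * u * b⁻¹ ∈ U :=
  fun b hb u hu => (Subgroup.mem_normalizer_iff.mp (h hb) u).mp hu

theorem map_conj_map_conj (X : Subgroup G) (c d : G) :
    (X.map (MulAut.conj c).toMonoidHom).map (MulAut.conj d).toMonoidHom =
      X.map (MulAut.conj (d * c)).toMonoidHom := by
  ext x
  rw [mem_map_conj_iff, mem_map_conj_iff, mem_map_conj_iff]
  have e : c⁻¹ * (d⁻¹ * x * d) * c = (d * c)⁻¹ * x * (d * c) := by group
  rw [e]

theorem map_conj_one (X : Subgroup G) : X.map (MulAut.conj (1 : G)).toMonoidHom = X := by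
  ext x
  rw [mem_map_conj_iff]
  simp

theorem family_of_le {X U : Subgroup G} (hX : X ∈ signalizerFamily p A θ) (hU : U ≤ X)
    (hUA : ∀ b ∈ A, ∀ u ∈ U, b * u * b⁻¹ ∈ U) : U ∈ signalizerFamily p A θ := by
  obtain ⟨hs, hc, hi, hθ⟩ := hX
  refine ⟨?_, ?_, hUA, ?_⟩
  · have := hs
    exact Group.isSolvable_of_isSolvable_injective (Subgroup.inclusion_injective hU)
  · intro h
    exact hc (dvd_trans h (Subgroup.card_dvd_of_le hU))
  · intro a ha ha1
    exact le_trans (inf_le_inf_right _ hU) (hθ a ha ha1)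

theorem theta_mem_family (hθ : IsSolvableSignalizerFunctor p A θ) {a : G} (ha : a ∈ A)
    (ha1 : a ≠ 1) : θ a ∈ signalizerFamily p A θ :=
  ⟨hθ.2 a ha ha1, hθ.1.2.1 a ha ha1, fun b hb x hx => hθ.1.2.2.1 a ha ha1 b hb x hx,
    fun b hb hb1 => hθ.1.2.2.2 a ha ha1 b hb hb1⟩

theorem bot_mem_family : (⊥ : Subgroup G) ∈ signalizerFamily p A θ := by
  have hp : p.Prime := Fact.out
  refine ⟨inferInstance, ?_, ?_, ?_⟩
  · rw [Subgroup.card_bot]
    exact hp.one_lt.ne' ∘ Nat.dvd_one.mp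
  · intro b _ u hu
    rw [Subgroup.mem_bot] at hu ⊢
    rw [hu]; group
  · intro a _ _
    exact le_trans inf_le_left bot_le

theorem mem_signalizerInf {B : Subgroup G} {c : G} :
    c ∈ signalizerInf B θ ↔ ∀ a ∈ B, a ≠ 1 → c ∈ θ a := by
  unfold signalizerInf
  rw [Subgroup.mem_iInf]
  constructor
  · intro h a ha ha1
    exact h ⟨a, ha, ha1⟩
  · intro h a
    exact h a.1 a.2.1 a.2.2

theorem signalizerInf_comm (hθ : IsSignalizerFunctor p A θ) {c : G}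
    (hc : c ∈ signalizerInf A θ) : ∀ a ∈ A, a * c = c * a := by
  intro a ha
  by_cases ha1 : a = 1
  · rw [ha1]; simp
  · have h1 := hθ.1 a ha ha1 (mem_signalizerInf.mp hc a ha ha1)
    exact (Subgroup.mem_centralizer_singleton_iff.mp h1).symm

theorem family_centralizer_mem_signalizerInf {X : Subgroup G} (hX : X ∈ signalizerFamily p A θ)
    {x : G} (hx : x ∈ X) (hc : ∀ a ∈ A, a * x = x * a) : x ∈ signalizerInf A θ := by
  rw [mem_signalizerInf]
  intro a ha ha1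
  exact hX.2.2.2 a ha ha1 ⟨hx, Subgroup.mem_centralizer_singleton_iff.mpr (hc a ha).symm⟩

theorem family_conj (hθ : IsSignalizerFunctor p A θ) {X : Subgroup G}
    (hX : X ∈ signalizerFamily p A θ) {c : G} (hc : c ∈ signalizerInf A θ) :
    X.map (MulAut.conj c).toMonoidHom ∈ signalizerFamily p A θ := by
  obtain ⟨hs, hcard, hi, hθX⟩ := hX
  have hcomm := signalizerInf_comm hθ hc
  have hinj : Function.Injective (MulAut.conj c).toMonoidHom := (MulAut.conj c).injective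
  refine ⟨?_, ?_, ?_, ?_⟩
  · have := hs
    exact Group.isSolvable_of_surjective
      (f := (X.equivMapOfInjective _ hinj).toMonoidHom) (X.equivMapOfInjective _ hinj).surjective
  · rw [Subgroup.card_map_of_injective hinj]; exact hcard
  · rintro b hb _ ⟨x, hx, rfl⟩
    refine ⟨b * x * b⁻¹, hi b hb x hx, ?_⟩
    show c * (b * x * b⁻¹) * c⁻¹ = b * (c * x * c⁻¹) * b⁻¹
    have h1 := hcomm b hb
    calc c * (b * x * b⁻¹) * c⁻¹ = (c * b) * x * (c * b)⁻¹ := by group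
      _ = (b * c) * x * (b * c)⁻¹ := by rw [h1]
      _ = b * (c * x * c⁻¹) * b⁻¹ := by group
  · intro a ha ha1 z hz
    obtain ⟨hz1, hz2⟩ := Subgroup.mem_inf.mp hz
    obtain ⟨x, hx, rfl⟩ := hz1
    have hca := mem_signalizerInf.mp hc a ha ha1
    have h1 := hcomm a ha
    have hcac : c * a * c⁻¹ = a := by rw [← h1]; group
    rw [Subgroup.mem_centralizer_singleton_iff] at hz2
    have hz2' : c * x * c⁻¹ * a = a * (c * x * c⁻¹) := hz2
    have hxa : x ∈ X ⊓ Subgroup.centralizer {a} := by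
      refine Subgroup.mem_inf.mpr ⟨hx, ?_⟩
      rw [Subgroup.mem_centralizer_singleton_iff]
      have h2 : c * (x * a) * c⁻¹ = c * (a * x) * c⁻¹ := by
        calc c * (x * a) * c⁻¹ = c * x * c⁻¹ * (c * a * c⁻¹) := by group
          _ = c * x * c⁻¹ * a := by rw [hcac]
          _ = a * (c * x * c⁻¹) := hz2'
          _ = (c * a * c⁻¹) * (c * x * c⁻¹) := by rw [hcac]
          _ = c * (a * x) * c⁻¹ := by group
      exact mul_left_cancel (mul_right_cancel h2)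
    exact (θ a).mul_mem ((θ a).mul_mem hca (hθX a ha ha1 hxa)) ((θ a).inv_mem hca)

/-- `Q` is maximal among the `q`-subgroups in the family of `θ`. -/
def IsMaxQ (p : ℕ) (A : Subgroup G) (θ : G → Subgroup G) (q : ℕ) (Q : Subgroup G) : Prop :=
  Q ∈ signalizerFamily p A θ ∧ IsPGroup q Q ∧
    ∀ R ∈ signalizerFamily p A θ, IsPGroup q R → Q ≤ R → R = Q

theorem exists_isMaxQ (q : ℕ) {R : Subgroup G} (hR : R ∈ signalizerFamily p A θ)
    (hq : IsPGroup q R) : ∃ Q, IsMaxQ p A θ q Q ∧ R ≤ Q := by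
  obtain ⟨n, hn⟩ : ∃ n, Nat.card G - Nat.card R = n := ⟨_, rfl⟩
  induction n using Nat.strong_induction_on generalizing R with
  | _ n ih =>
    by_cases h : ∀ R' ∈ signalizerFamily p A θ, IsPGroup q R' → R ≤ R' → R' = R
    · exact ⟨R, ⟨hR, hq, h⟩, le_refl _⟩
    · push Not at h
      obtain ⟨R', hR', hq', hle, hne⟩ := h
      have hlt : Nat.card R < Nat.card R' := by
        by_contra hcon
        push Not at hcon
        exact hne (Subgroup.eq_of_le_of_card_ge hle hcon).symm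
      have hle' : Nat.card R' ≤ Nat.card G := Subgroup.card_le_card_group R'
      obtain ⟨Q, hQ, hRQ⟩ := ih (Nat.card G - Nat.card R') (by omega) hR' hq' rfl
      exact ⟨Q, hQ, le_trans hle hRQ⟩

theorem isMaxQ_conj (hθ : IsSignalizerFunctor p A θ) {q : ℕ} {Q : Subgroup G}
    (hQ : IsMaxQ p A θ q Q) {c : G} (hc : c ∈ signalizerInf A θ) :
    IsMaxQ p A θ q (Q.map (MulAut.conj c).toMonoidHom) := by
  obtain ⟨hf, hq, hmax⟩ := hQ
  refine ⟨family_conj hθ hf hc, hq.map _, ?_⟩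
  intro R hR hRq hle
  have hc' : c⁻¹ ∈ signalizerInf A θ := Subgroup.inv_mem _ hc
  have hle' : Q ≤ R.map (MulAut.conj c⁻¹).toMonoidHom := by
    intro x hx
    rw [mem_map_conj_iff]
    have h1 : c * x * c⁻¹ ∈ R := hle (conj_mem_map_conj c hx)
    simpa using h1
  have h1 := hmax (R.map (MulAut.conj c⁻¹).toMonoidHom) (family_conj hθ hR hc') (hRq.map _) hle'
  rw [← h1, map_conj_map_conj, mul_inv_cancel, map_conj_one]

theorem conj_mem_sup {B X Y : Subgroup G} (hX : ∀ b ∈ B, ∀ u ∈ X, b * u * b⁻¹ ∈ X)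
    (hY : ∀ b ∈ B, ∀ u ∈ Y, b * u * b⁻¹ ∈ Y) : ∀ b ∈ B, ∀ u ∈ X ⊔ Y, b * u * b⁻¹ ∈ X ⊔ Y := by
  intro b hb u hu
  have h1 : (X ⊔ Y).map (MulAut.conj b).toMonoidHom ≤ X ⊔ Y := by
    rw [Subgroup.map_sup]
    apply sup_le
    · rintro _ ⟨x, hx, rfl⟩
      exact Subgroup.mem_sup_left (hX b hb x hx)
    · rintro _ ⟨y, hy, rfl⟩
      exact Subgroup.mem_sup_right (hY b hb y hy)
  exact h1 (conj_mem_map_conj b hu)

theorem conj_mem_centralizer_singleton {B : Subgroup G} {a : G}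
    (hB : ∀ b ∈ B, b * a = a * b) :
    ∀ b ∈ B, ∀ u ∈ Subgroup.centralizer ({a} : Set G),
      b * u * b⁻¹ ∈ Subgroup.centralizer ({a} : Set G) := by
  intro b hb u hu
  rw [Subgroup.mem_centralizer_singleton_iff] at hu ⊢
  have h1 := hB b hb
  have h2 : b⁻¹ * a = a * b⁻¹ := by
    have : b⁻¹ * a = b⁻¹ * (a * b) * b⁻¹ := by group
    rw [this, ← h1]; group
  calc b * u * b⁻¹ * a = b * u * (b⁻¹ * a) := by group
    _ = b * u * (a * b⁻¹) := by rw [h2]
    _ = b * (u * a) * b⁻¹ := by group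
    _ = b * (a * u) * b⁻¹ := by rw [hu]
    _ = (b * a) * u * b⁻¹ := by group
    _ = (a * b) * u * b⁻¹ := by rw [h1]
    _ = a * (b * u * b⁻¹) := by group

/-- Invariant Sylow subgroups containing two given invariant `q`-subgroups, conjugate under the
centralizer of `A`. -/
theorem exists_conj_invariant_sylow (hA : IsElementaryAbelian p A) {L : Subgroup G}
    (hLA : A ≤ Subgroup.normalizer (L : Set G)) (hLp : ¬ p ∣ Nat.card L) (q : ℕ) [Fact q.Prime]
    {U₁ U₂ : Subgroup G} (h₁ : U₁ ≤ L) (h₂ : U₂ ≤ L) (hq₁ : IsPGroup q U₁) (hq₂ : IsPGroup q U₂)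
    (hA₁ : A ≤ Subgroup.normalizer (U₁ : Set G)) (hA₂ : A ≤ Subgroup.normalizer (U₂ : Set G)) :
    ∃ R₁ R₂ : Subgroup G, ∃ c ∈ L, (∀ a ∈ A, a * c = c * a) ∧ U₁ ≤ R₁ ∧ U₂ ≤ R₂ ∧ R₁ ≤ L ∧
      R₂ ≤ L ∧ IsPGroup q R₁ ∧ IsPGroup q R₂ ∧ A ≤ Subgroup.normalizer (R₁ : Set G) ∧
      A ≤ Subgroup.normalizer (R₂ : Set G) ∧ R₁.map (MulAut.conj c).toMonoidHom = R₂ := by
  have hcop := elemAb_coprime hA hLp
  have hsolv : Group.IsSolvable A ∨ Group.IsSolvable L := Or.inl (elemAb_isSolvable hA)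
  obtain ⟨P₁, hP₁, hPA₁⟩ := Cfsg.Agent.S0025.result A L hLA hcop hsolv q U₁ h₁ hq₁ hA₁
  obtain ⟨P₂, hP₂, hPA₂⟩ := Cfsg.Agent.S0025.result A L hLA hcop hsolv q U₂ h₂ hq₂ hA₂
  obtain ⟨c, hc, hcP⟩ := Cfsg.Agent.S0024.result A L hLA hcop hsolv q P₁ P₂ hPA₁ hPA₂
  refine ⟨(P₁ : Subgroup L).map L.subtype, (P₂ : Subgroup L).map L.subtype, (c : G), c.2, ?_,
    hP₁, hP₂, ?_, ?_, ?_, ?_, hPA₁, hPA₂, ?_⟩
  · intro a ha
    exact Subgroup.mem_centralizer_iff.mp hc a ha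
  · exact Subgroup.map_subtype_le _
  · exact Subgroup.map_subtype_le _
  · exact P₁.isPGroup'.map _
  · exact P₂.isPGroup'.map _
  · have h1 : ((MulAut.conj c • P₁ : Sylow q L) : Subgroup L) = MulAut.conj c • (P₁ : Subgroup L) :=
      Sylow.coe_subgroup_smul
    rw [hcP] at h1
    rw [h1, Cfsg.Agent.Lib.Helper1.map_conj_smul]
    ext x
    rw [mem_map_conj_iff, Cfsg.Agent.Lib.Helper1.mem_conj_smul]
    rfl

theorem signalizer_transitivity_aux (hA : IsElementaryAbelian p A) (hA3 : p ^ 3 ≤ Nat.card A)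
    (hθ : IsSolvableSignalizerFunctor p A θ) (q : ℕ) [Fact q.Prime] (hqp : q ≠ p) :
    ∀ n : ℕ, ∀ Q₁ Q₂ : Subgroup G, IsMaxQ p A θ q Q₁ → IsMaxQ p A θ q Q₂ →
      Nat.card G - Nat.card ↥(Q₁ ⊓ Q₂) = n →
      ∃ c ∈ signalizerInf A θ, Q₁.map (MulAut.conj c).toMonoidHom = Q₂ := by
  have hp : p.Prime := Fact.out
  have hcommA := elemAb_comm hA
  have hA2 : p ^ 2 ≤ Nat.card A := le_trans (Nat.pow_le_pow_right hp.pos (by norm_num)) hA3
  have hcardG : ∀ X : Subgroup G, Nat.card X ≤ Nat.card G := fun X => Subgroup.card_le_card_group X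
  intro n
  induction n using Nat.strong_induction_on with
  | _ n ih =>
    intro Q₁ Q₂ hQ₁ hQ₂ hn
    by_cases hEq : Q₁ = Q₂
    · exact ⟨1, Subgroup.one_mem _, by rw [map_conj_one]; exact hEq⟩
    obtain ⟨hf₁, hq₁, hmax₁⟩ := hQ₁
    obtain ⟨hf₂, hq₂, hmax₂⟩ := hQ₂
    have hD1 : Q₁ ⊓ Q₂ ≠ Q₁ := by
      intro h
      exact hEq (hmax₁ Q₂ hf₂ hq₂ (inf_eq_left.mp h)).symm
    have hD2 : Q₁ ⊓ Q₂ ≠ Q₂ := by
      intro h
      exact hEq (hmax₂ Q₁ hf₁ hq₁ (inf_eq_right.mp h))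
    have hA₁ : A ≤ Subgroup.normalizer (Q₁ : Set G) := le_normalizer_of_conj_mem hf₁.2.2.1
    have hA₂ : A ≤ Subgroup.normalizer (Q₂ : Set G) := le_normalizer_of_conj_mem hf₂.2.2.1
    obtain ⟨a, ha, ha1, hN1, hN2⟩ :=
      Cfsg.Agent.S1282.result p A hA hA3 q hqp Q₁ Q₂ hq₁ hq₂ hA₁ hA₂ hD1 hD2
    set D : Subgroup G := Q₁ ⊓ Q₂ with hDdef
    have hDinv : ∀ b ∈ A, ∀ u ∈ D, b * u * b⁻¹ ∈ D := fun b hb u hu =>
      ⟨hf₁.2.2.1 b hb u hu.1, hf₂.2.2.1 b hb u hu.2⟩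
    have hAD : A ≤ Subgroup.normalizer (D : Set G) := le_normalizer_of_conj_mem hDinv
    have hDf : D ∈ signalizerFamily p A θ := family_of_le hf₁ inf_le_left hDinv
    have hNDinv : ∀ b ∈ A, ∀ u ∈ Subgroup.normalizer (D : Set G),
        b * u * b⁻¹ ∈ Subgroup.normalizer (D : Set G) := fun b hb u hu =>
      Subgroup.mul_mem _ (Subgroup.mul_mem _ (hAD hb) hu) (Subgroup.inv_mem _ (hAD hb))
    have hθa := theta_mem_family hθ ha ha1
    have hKinv : ∀ b ∈ A, ∀ u ∈ θ a ⊓ Subgroup.normalizer (D : Set G),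
        b * u * b⁻¹ ∈ θ a ⊓ Subgroup.normalizer (D : Set G) := fun b hb u hu =>
      ⟨hθa.2.2.1 b hb u hu.1, hNDinv b hb u hu.2⟩
    have hKf : θ a ⊓ Subgroup.normalizer (D : Set G) ∈ signalizerFamily p A θ :=
      family_of_le hθa inf_le_left hKinv
    have hL : D ⊔ (θ a ⊓ Subgroup.normalizer (D : Set G)) ∈ signalizerFamily p A θ :=
      Cfsg.Agent.S1280.result p A hA hA2 θ hθ D _ hDf hKf inf_le_right
    set L : Subgroup G := D ⊔ (θ a ⊓ Subgroup.normalizer (D : Set G)) with hLdef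
    have hLA : A ≤ Subgroup.normalizer (L : Set G) := le_normalizer_of_conj_mem hL.2.2.1
    have hCinv := conj_mem_centralizer_singleton (B := A) (a := a) (fun b hb => hcommA b hb a ha)
    have key : ∀ Q : Subgroup G, Q ∈ signalizerFamily p A θ → IsPGroup q Q → D ≤ Q →
        ¬ (Subgroup.normalizer (D : Set G) ⊓ Q ⊓ Subgroup.centralizer {a} ≤ D) →
        ∃ U : Subgroup G, U ≤ Q ∧ U ≤ L ∧ IsPGroup q U ∧ A ≤ Subgroup.normalizer (U : Set G) ∧
          Nat.card D < Nat.card U := by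
      intro Q hQf hQq hDQ hN
      refine ⟨D ⊔ (Subgroup.normalizer (D : Set G) ⊓ Q ⊓ Subgroup.centralizer {a}), ?_, ?_, ?_, ?_, ?_⟩
      · exact sup_le hDQ (inf_le_left.trans inf_le_right)
      · apply sup_le le_sup_left
        refine le_trans ?_ le_sup_right
        intro x hx
        exact ⟨hQf.2.2.2 a ha ha1 ⟨hx.1.2, hx.2⟩, hx.1.1⟩
      · exact hQq.to_le (sup_le hDQ (inf_le_left.trans inf_le_right))
      · apply le_normalizer_of_conj_mem
        apply conj_mem_sup hDinv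
        intro b hb u hu
        exact ⟨⟨hNDinv b hb u hu.1.1, hQf.2.2.1 b hb u hu.1.2⟩, hCinv b hb u hu.2⟩
      · by_contra hcon
        push Not at hcon
        have := Subgroup.eq_of_le_of_card_ge (le_sup_left : D ≤ D ⊔ (Subgroup.normalizer (D : Set G) ⊓ Q ⊓ Subgroup.centralizer {a})) hcon
        apply hN
        have h2 : Subgroup.normalizer (D : Set G) ⊓ Q ⊓ Subgroup.centralizer {a} ≤
            D ⊔ (Subgroup.normalizer (D : Set G) ⊓ Q ⊓ Subgroup.centralizer {a}) := le_sup_right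
        rw [← this] at h2
        exact h2
    obtain ⟨U₁, hU₁Q, hU₁L, hU₁q, hU₁A, hcard₁⟩ := key Q₁ hf₁ hq₁ inf_le_left hN1
    obtain ⟨U₂, hU₂Q, hU₂L, hU₂q, hU₂A, hcard₂⟩ := key Q₂ hf₂ hq₂ inf_le_right hN2
    obtain ⟨R₁, R₂, c, hcL, hcA, hUR₁, hUR₂, hR₁L, hR₂L, hR₁q, hR₂q, hR₁A, hR₂A, hR⟩ :=
      exists_conj_invariant_sylow hA hLA hL.2.1 q hU₁L hU₂L hU₁q hU₂q hU₁A hU₂A
    have hcInf : c ∈ signalizerInf A θ := family_centralizer_mem_signalizerInf hL hcL hcA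
    have hR₂f : R₂ ∈ signalizerFamily p A θ :=
      family_of_le hL hR₂L (conj_mem_of_le_normalizer hR₂A)
    obtain ⟨Q₃, hQ₃, hR₂Q₃⟩ := exists_isMaxQ q hR₂f hR₂q
    have h32 : Nat.card D < Nat.card ↥(Q₃ ⊓ Q₂) :=
      lt_of_lt_of_le hcard₂ (Subgroup.card_le_of_le (le_inf (hUR₂.trans hR₂Q₃) hU₂Q))
    obtain ⟨c₂, hc₂, hc₂Q⟩ := ih (Nat.card G - Nat.card ↥(Q₃ ⊓ Q₂))
      (by have := hcardG (Q₃ ⊓ Q₂); omega) Q₃ Q₂ hQ₃ ⟨hf₂, hq₂, hmax₂⟩ rfl
    have hQ₁c : IsMaxQ p A θ q (Q₁.map (MulAut.conj c).toMonoidHom) :=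
      isMaxQ_conj hθ.1 ⟨hf₁, hq₁, hmax₁⟩ hcInf
    have hU₁c : U₁.map (MulAut.conj c).toMonoidHom ≤ Q₁.map (MulAut.conj c).toMonoidHom ⊓ Q₃ :=
      le_inf (Subgroup.map_mono hU₁Q) (((Subgroup.map_mono hUR₁).trans hR.le).trans hR₂Q₃)
    have h13 : Nat.card D < Nat.card ↥(Q₁.map (MulAut.conj c).toMonoidHom ⊓ Q₃) := by
      have := Subgroup.card_le_of_le hU₁c
      rw [card_map_conj'] at this
      omega
    obtain ⟨c₁, hc₁, hc₁Q⟩ := ih (Nat.card G - Nat.card ↥(Q₁.map (MulAut.conj c).toMonoidHom ⊓ Q₃))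
      (by have := hcardG (Q₁.map (MulAut.conj c).toMonoidHom ⊓ Q₃); omega) _ Q₃ hQ₁c hQ₃ rfl
    refine ⟨c₂ * (c₁ * c), Subgroup.mul_mem _ hc₂ (Subgroup.mul_mem _ hc₁ hcInf), ?_⟩
    rw [← hc₂Q, ← hc₁Q, map_conj_map_conj, map_conj_map_conj, mul_assoc]

/-- The transitivity theorem: any two maximal `q`-subgroups in the family of a solvable signalizer
functor on a group of rank at least 3 are conjugate under `θ(C(A))`. -/
theorem signalizer_transitivity (hA : IsElementaryAbelian p A) (hA3 : p ^ 3 ≤ Nat.card A)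
    (hθ : IsSolvableSignalizerFunctor p A θ) (q : ℕ) [Fact q.Prime] {Q₁ Q₂ : Subgroup G}
    (hQ₁ : IsMaxQ p A θ q Q₁) (hQ₂ : IsMaxQ p A θ q Q₂) :
    ∃ c ∈ signalizerInf A θ, Q₁.map (MulAut.conj c).toMonoidHom = Q₂ := by
  by_cases hqp : q = p
  · have triv : ∀ Q : Subgroup G, IsMaxQ p A θ q Q → Q = ⊥ := by
      intro Q hQ
      obtain ⟨n, hn⟩ := hQ.2.1.exists_card_eq
      have h1 := hQ.1.2.1
      rw [hn, hqp] at h1
      cases n with
      | zero => exact Subgroup.eq_bot_of_card_eq Q (by rw [hn]; simp)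
      | succ n => exact absurd (dvd_pow_self p (Nat.succ_ne_zero n)) h1
    refine ⟨1, Subgroup.one_mem _, ?_⟩
    rw [map_conj_one, triv Q₁ hQ₁, triv Q₂ hQ₂]
  · exact signalizer_transitivity_aux hA hA3 hθ q hqp _ Q₁ Q₂ hQ₁ hQ₂ rfl

end Signalizer

end Cfsg.Agent.Lib.Helper22
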