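import Mathlib
import Cfsg.Agent.Lib.Helper22.SylTools
import Cfsg.Agent.Lib.Helper22.Isolated
import Cfsg.Agent.Lib.Helper34.CoreAux
import Cfsg.Agent.S0215

/-!
Groups centralizing a Sylow 2-subgroup (helper22).

Main result `centralizes_sylow_commutator_le`: let `K, J, Q` be subgroups of a finite group with
`J ≤ N(K)`, `Q` a Sylow 2-subgroup of `K`, `J ≤ C(Q)`, `J` perfect and generated by its
2-elements. Then `⁅K, J⁆ ≤ O(K)`.  The proof is by induction and uses Glauberman's `Z*`-theorem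
(S0215) through the isolation criterion of `Isolated.lean`.
-/

set_option autoImplicit false

namespace Cfsg.Agent.Lib.Helper22

open Cfsg
open scoped commutatorElement

universe u

section Basic

variable {G : Type*} [Group G]

theorem coprime_two_of_odd' {m : ℕ} (h : Odd m) : m.Coprime 2 := by
  rw [Nat.coprime_comm, Nat.Prime.coprime_iff_not_dvd Nat.prime_two]
  intro h2
  exact (Nat.not_even_iff_odd.mpr h) (even_iff_two_dvd.mpr h2)

theorem odd_of_coprime_two' {m : ℕ} (h : m.Coprime 2) : Odd m := by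
  rw [Nat.coprime_comm, Nat.Prime.coprime_iff_not_dvd Nat.prime_two] at h
  exact Nat.not_even_iff_odd.mp (fun h2 => h (even_iff_two_dvd.mp h2))

/-- A finite subgroup all of whose elements have odd order has odd order. -/
theorem card_coprime_two_of_pow [Finite G] {W : Subgroup G} (m : ℕ) (hm : Odd m)
    (h : ∀ x ∈ W, x ^ m = 1) : (Nat.card W).Coprime 2 := by
  rw [Nat.coprime_comm, Nat.Prime.coprime_iff_not_dvd Nat.prime_two]
  intro h2
  haveI : Fact (Nat.Prime 2) := ⟨Nat.prime_two⟩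
  obtain ⟨x, hx⟩ := exists_prime_orderOf_dvd_card' (G := ↥W) 2 h2
  have h3 : x ^ m = 1 := Subtype.ext (by rw [Subgroup.coe_pow]; exact h x x.2)
  have h4 : 2 ∣ m := hx ▸ orderOf_dvd_of_pow_eq_one h3
  exact (Nat.not_even_iff_odd.mpr hm) (even_iff_two_dvd.mpr h4)

theorem commute_of_pow_commute {q k : G} {m a : ℕ} (hm : Odd m) (hq : q ^ 2 ^ a = 1)
    (h : Commute (q ^ m) k) : Commute q k := by
  have h1 : m.Coprime (orderOf q) :=
    Nat.Coprime.coprime_dvd_right (orderOf_dvd_of_pow_eq_one hq)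
      (Nat.Coprime.pow_right a (coprime_two_of_odd' hm))
  obtain ⟨s, hs⟩ := exists_pow_eq_self_of_coprime h1
  rw [← hs]
  exact h.pow_left s

theorem mem_normalizer_inf' {A B : Subgroup G} {g : G}
    (hA : g ∈ Subgroup.normalizer (A : Set G)) (hB : g ∈ Subgroup.normalizer (B : Set G)) :
    g ∈ Subgroup.normalizer ((A ⊓ B : Subgroup G) : Set G) := by
  rw [Subgroup.mem_normalizer_iff] at hA hB ⊢
  intro x
  rw [Subgroup.mem_inf, Subgroup.mem_inf, ← hA x, ← hB x]

theorem card_map_lt_of_inf_ker_ne_bot {A B : Type*} [Group A] [Finite A] [Group B] (f : A →* B)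
    {R : Subgroup A} (h : R ⊓ f.ker ≠ ⊥) : Nat.card (R.map f) < Nat.card R := by
  classical
  haveI : Finite ↥(R.map f) := Finite.of_surjective _ (f.subgroupMap_surjective R)
  have := Fintype.ofFinite ↥R
  have := Fintype.ofFinite ↥(R.map f)
  rw [Nat.card_eq_fintype_card, Nat.card_eq_fintype_card]
  apply Fintype.card_lt_of_surjective_not_injective (f.subgroupMap R) (f.subgroupMap_surjective R)
  intro hinj
  obtain ⟨z, hz⟩ := (Subgroup.ne_bot_iff_exists_ne_one).mp h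
  have h1 : f.subgroupMap R ⟨z.1, z.2.1⟩ = f.subgroupMap R 1 := by
    rw [map_one]
    apply Subtype.ext
    show f z.1 = 1
    exact MonoidHom.mem_ker.mp z.2.2
  have h2 := hinj h1
  have h3 : (z : A) = 1 := congrArg Subtype.val h2
  exact hz (Subtype.ext h3)

theorem commutator_le_centralizer_of_centralizes {K J M : Subgroup G}
    (hKM : K ≤ Subgroup.normalizer (M : Set G))
    (hJM : ∀ m ∈ M, ∀ j ∈ J, j * m = m * j) :
    ⁅K, J⁆ ≤ Subgroup.centralizer (M : Set G) := by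
  rw [Subgroup.commutator_le]
  intro k hk j hj
  rw [Subgroup.mem_centralizer_iff]
  intro m hm
  have h1 : j⁻¹ * m * j = m := by
    rw [mul_assoc, ← hJM m hm j hj]
    group
  have hm' : k⁻¹ * m * k ∈ M := by
    have := (Subgroup.mem_normalizer_iff.mp (Subgroup.inv_mem _ (hKM hk)) m).mp hm
    rwa [inv_inv] at this
  have h2 : j * (k⁻¹ * m * k) * j⁻¹ = k⁻¹ * m * k := by
    rw [hJM _ hm' j hj]
    group
  have h3 : ⁅k, j⁆ * m * ⁅k, j⁆⁻¹ = m := by
    calc ⁅k, j⁆ * m * ⁅k, j⁆⁻¹ = k * j * k⁻¹ * (j⁻¹ * m * j) * k * j⁻¹ * k⁻¹ := by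
          rw [commutatorElement_def]
          group
      _ = k * (j * (k⁻¹ * m * k) * j⁻¹) * k⁻¹ := by
          rw [h1]
          group
      _ = m := by
          rw [h2]
          group
  calc m * ⁅k, j⁆ = (⁅k, j⁆ * m * ⁅k, j⁆⁻¹) * ⁅k, j⁆ := by rw [h3]
    _ = ⁅k, j⁆ * m := by group

theorem centralizes_of_commutator_le {K J C : Subgroup G}
    (hKJ : ⁅K, J⁆ ≤ C) (hJC : ∀ c ∈ C, ∀ j ∈ J, j * c = c * j) (hperf : ⁅J, J⁆ = J) :
    ∀ k ∈ K, ∀ j ∈ J, j * k = k * j := by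
  have hC : C ≤ Subgroup.centralizer (J : Set G) := by
    intro c hc
    rw [Subgroup.mem_centralizer_iff]
    intro j hj
    exact hJC c hc j hj
  have h1 : ⁅⁅K, J⁆, J⁆ = ⊥ :=
    Subgroup.commutator_eq_bot_iff_le_centralizer.mpr (hKJ.trans hC)
  have h2 : ⁅⁅J, K⁆, J⁆ = ⊥ := by
    rw [Subgroup.commutator_comm J K]
    exact h1
  have h3 : ⁅⁅J, J⁆, K⁆ = ⊥ := Subgroup.commutator_commutator_eq_bot_of_rotate h2 h1
  rw [hperf, Subgroup.commutator_eq_bot_iff_le_centralizer] at h3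
  intro k hk j hj
  exact (Subgroup.mem_centralizer_iff.mp (h3 hj) k hk).symm

end Basic

/-! ### Perfect subgroups generated by 2-elements -/

section Resid

/-- `J` is perfect and generated by its 2-elements. -/
structure TwoResid {G : Type*} [Group G] (J : Subgroup G) : Prop where
  perf : ⁅J, J⁆ = J
  gen : J ≤ Subgroup.closure {x : G | x ∈ J ∧ ∃ k : ℕ, x ^ 2 ^ k = 1}

theorem TwoResid.map {G G' : Type*} [Group G] [Group G'] (f : G →* G') {J : Subgroup G}
    (h : TwoResid J) : TwoResid (J.map f) := by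
  refine ⟨by rw [← Subgroup.map_commutator, h.perf], ?_⟩
  refine (Subgroup.map_mono h.gen).trans ?_
  rw [MonoidHom.map_closure]
  apply Subgroup.closure_mono
  rintro _ ⟨x, ⟨hxJ, k, hxk⟩, rfl⟩
  exact ⟨Subgroup.mem_map_of_mem f hxJ, k, by rw [← map_pow, hxk, map_one]⟩

theorem TwoResid.subgroupOf {G : Type*} [Group G] {J T : Subgroup G} (h : TwoResid J)
    (hJT : J ≤ T) : TwoResid (J.subgroupOf T) := by
  refine ⟨?_, ?_⟩
  · apply Subgroup.map_injective T.subtype_injective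
    rw [Subgroup.map_commutator, Subgroup.subgroupOf_map_subtype, inf_of_le_left hJT, h.perf]
  · intro x hx
    have hx' : (x : G) ∈ J := Subgroup.mem_subgroupOf.mp hx
    have h2 : Subgroup.closure {y : G | y ∈ J ∧ ∃ k : ℕ, y ^ 2 ^ k = 1} ≤
        (Subgroup.closure {x : ↥T | x ∈ J.subgroupOf T ∧ ∃ k : ℕ, x ^ 2 ^ k = 1}).map
          T.subtype := by
      rw [Subgroup.closure_le]
      rintro y ⟨hyJ, k, hyk⟩
      refine ⟨⟨y, hJT hyJ⟩, Subgroup.subset_closure ⟨Subgroup.mem_subgroupOf.mpr hyJ, k, ?_⟩, rfl⟩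
      apply Subtype.ext
      rw [Subgroup.coe_pow]
      exact hyk
    obtain ⟨z, hz, hzx⟩ := h2 (h.gen hx')
    have hzx' : z = x := Subtype.ext hzx
    rw [← hzx']
    exact hz

/-- A perfect subgroup generated by 2-elements with a nontrivial element contains an
involution. -/
theorem TwoResid.exists_involution {G : Type*} [Group G] {J : Subgroup G} (h : TwoResid J)
    (hJ : J ≠ ⊥) : ∃ u ∈ J, orderOf u = 2 := by
  have h1 : ∃ v ∈ J, (∃ k : ℕ, v ^ 2 ^ k = 1) ∧ v ≠ 1 := by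
    by_contra hcon
    apply hJ
    rw [eq_bot_iff]
    refine h.gen.trans ?_
    rw [Subgroup.closure_le]
    rintro x ⟨hxJ, hxk⟩
    by_contra hx1
    exact hcon ⟨x, hxJ, hxk, fun h0 => hx1 (by rw [h0]; exact Subgroup.one_mem _)⟩
  obtain ⟨v, hvJ, ⟨k, hvk⟩, hv1⟩ := h1
  have h2 : orderOf v ∣ 2 ^ k := orderOf_dvd_of_pow_eq_one hvk
  obtain ⟨a, -, ha⟩ := (Nat.dvd_prime_pow Nat.prime_two).mp h2
  have ha0 : a ≠ 0 := by
    intro h0
    rw [h0, pow_zero] at ha
    exact hv1 (orderOf_eq_one_iff.mp ha)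
  have h3 : (2 : ℕ) ∣ orderOf v := by
    rw [ha]
    exact dvd_pow_self 2 ha0
  have h4 : orderOf v ≠ 0 := by
    rw [ha]
    positivity
  exact ⟨v ^ (orderOf v / 2), Subgroup.pow_mem _ hvJ _, orderOf_pow_orderOf_div h4 h3⟩

end Resid

/-! ### The hypotheses, transport -/

section Hyp

/-- The hypotheses of the main theorem. -/
structure SCHyp {G : Type*} [Group G] (K J Q : Subgroup G) : Prop where
  norm : J ≤ Subgroup.normalizer (K : Set G)
  syl : IsSyl 2 Q K
  cent : J ≤ Subgroup.centralizer (Q : Set G)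
  res : TwoResid J

/-- The statement of the main theorem for `|K| + |J| ≤ n`. -/
def SCStmt (n : ℕ) : Prop :=
  ∀ (G : Type u) [Group G] [Finite G] (K J Q : Subgroup G), SCHyp K J Q →
    Nat.card K + Nat.card J ≤ n → ⁅K, J⁆ ≤ Cfsg.Agent.Lib.Helper23.coreOf 2 K

theorem SCHyp.map {G G' : Type*} [Group G] [Finite G] [Group G'] (f : G →* G')
    {K J Q : Subgroup G} (h : SCHyp K J Q) : SCHyp (K.map f) (J.map f) (Q.map f) := by
  haveI : Fact (Nat.Prime 2) := ⟨Nat.prime_two⟩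
  refine ⟨?_, h.syl.map f, ?_, h.res.map f⟩
  · exact (Subgroup.map_mono h.norm).trans (Subgroup.le_normalizer_map f)
  · rintro _ ⟨j, hj, rfl⟩
    rw [Subgroup.mem_centralizer_iff]
    rintro _ ⟨q, hq, rfl⟩
    rw [← map_mul, ← map_mul, Subgroup.mem_centralizer_iff.mp (h.cent hj) q hq]

theorem SCHyp.subgroupOf {G : Type*} [Group G] {K J Q T : Subgroup G} (h : SCHyp K J Q)
    (hKT : K ≤ T) (hJT : J ≤ T) :
    SCHyp (K.subgroupOf T) (J.subgroupOf T) (Q.subgroupOf T) := by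
  refine ⟨?_, h.syl.subgroupOf hKT, ?_, h.res.subgroupOf hJT⟩
  · intro x hx
    have h1 := h.norm (Subgroup.mem_subgroupOf.mp hx)
    rw [Subgroup.mem_normalizer_iff] at h1 ⊢
    intro y
    rw [Subgroup.mem_subgroupOf, Subgroup.mem_subgroupOf]
    exact h1 y
  · intro x hx
    have h1 := h.cent (Subgroup.mem_subgroupOf.mp hx)
    rw [Subgroup.mem_centralizer_iff] at h1 ⊢
    intro y hy
    apply Subtype.ext
    exact h1 y (Subgroup.mem_subgroupOf.mp hy)

end Hyp

/-! ### Reductions -/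

section Induction

variable {G : Type u} [Group G] [Finite G]

/-- Passing to the quotient by a subgroup `N` normalized by `K` and `J`. -/
theorem sc_quot (n : ℕ) (ih : SCStmt.{u} n) {K J Q N : Subgroup G}
    (h : SCHyp K J Q) (hKN : K ≤ Subgroup.normalizer (N : Set G))
    (hJN : J ≤ Subgroup.normalizer (N : Set G))
    (hcard : Nat.card K + Nat.card J ≤ n + 1) (hlt : K ⊓ N ≠ ⊥ ∨ J ⊓ N ≠ ⊥) :
    ∃ O₁ : Subgroup G, O₁ ≤ K ∧ K ≤ Subgroup.normalizer (O₁ : Set G) ∧
      J ≤ Subgroup.normalizer (O₁ : Set G) ∧ (∃ m : ℕ, Odd m ∧ ∀ x ∈ O₁, x ^ m ∈ N) ∧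
      ⁅K, J⁆ ≤ O₁ := by
  classical
  obtain ⟨T, hTdef⟩ : ∃ T : Subgroup G, T = Subgroup.normalizer (N : Set G) := ⟨_, rfl⟩
  rw [← hTdef] at hKN hJN
  haveI hNn : (N.subgroupOf T).Normal := by
    rw [hTdef]
    exact Subgroup.normal_in_normalizer
  obtain ⟨π, hπdef⟩ : ∃ π : ↥T →* ↥T ⧸ N.subgroupOf T,
      π = QuotientGroup.mk' (N.subgroupOf T) := ⟨_, rfl⟩
  have hker : ∀ x : ↥T, π x = 1 ↔ (x : G) ∈ N := by
    intro x
    rw [hπdef, QuotientGroup.mk'_apply, QuotientGroup.eq_one_iff, Subgroup.mem_subgroupOf]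
  have hH := (h.subgroupOf hKN hJN).map π
  obtain ⟨K', hK'⟩ : ∃ K' : Subgroup (↥T ⧸ N.subgroupOf T), K' = (K.subgroupOf T).map π :=
    ⟨_, rfl⟩
  obtain ⟨J', hJ'⟩ : ∃ J' : Subgroup (↥T ⧸ N.subgroupOf T), J' = (J.subgroupOf T).map π :=
    ⟨_, rfl⟩
  rw [← hK', ← hJ'] at hH
  have hcK : Nat.card (K.subgroupOf T) = Nat.card K :=
    Nat.card_congr (Subgroup.subgroupOfEquivOfLe hKN).toEquiv
  have hcJ : Nat.card (J.subgroupOf T) = Nat.card J :=
    Nat.card_congr (Subgroup.subgroupOfEquivOfLe hJN).toEquiv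
  have hc1 : Nat.card K' ≤ Nat.card K := by
    rw [hK', ← hcK]
    exact Nat.le_of_dvd Nat.card_pos (Subgroup.card_map_dvd _ π)
  have hc2 : Nat.card J' ≤ Nat.card J := by
    rw [hJ', ← hcJ]
    exact Nat.le_of_dvd Nat.card_pos (Subgroup.card_map_dvd _ π)
  have hkerπ : ∀ A : Subgroup G, A ≤ T → A ⊓ N ≠ ⊥ → (A.subgroupOf T) ⊓ π.ker ≠ ⊥ := by
    intro A hAT hAN h0
    apply hAN
    rw [eq_bot_iff]
    intro x hx
    have h1 : (⟨x, hAT hx.1⟩ : ↥T) ∈ (A.subgroupOf T) ⊓ π.ker :=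
      ⟨Subgroup.mem_subgroupOf.mpr hx.1, MonoidHom.mem_ker.mpr ((hker _).mpr hx.2)⟩
    rw [h0, Subgroup.mem_bot] at h1
    rw [Subgroup.mem_bot]
    exact congrArg Subtype.val h1
  have hc3 : Nat.card K' + Nat.card J' ≤ n := by
    rcases hlt with hlt | hlt
    · have h1 := card_map_lt_of_inf_ker_ne_bot π (hkerπ K hKN hlt)
      rw [← hK', hcK] at h1
      omega
    · have h1 := card_map_lt_of_inf_ker_ne_bot π (hkerπ J hJN hlt)
      rw [← hJ', hcJ] at h1
      omega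
  have hmain := ih (↥T ⧸ N.subgroupOf T) K' J' _ hH hc3
  obtain ⟨O', hO'def⟩ : ∃ O' : Subgroup (↥T ⧸ N.subgroupOf T),
      O' = Cfsg.Agent.Lib.Helper23.coreOf 2 K' := ⟨_, rfl⟩
  rw [← hO'def] at hmain
  have hO'odd : (Nat.card O').Coprime 2 := hO'def ▸ coreOf_coprime' 2 K'
  have hK'O' : K' ≤ Subgroup.normalizer (O' : Set (↥T ⧸ N.subgroupOf T)) := by
    rw [hO'def]
    exact Subgroup.le_normalizer.trans (coreOf_normalizer_le 2 K')
  have hJ'O' : J' ≤ Subgroup.normalizer (O' : Set (↥T ⧸ N.subgroupOf T)) := by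
    rw [hO'def]
    exact hH.norm.trans (coreOf_normalizer_le 2 K')
  have hπK : ∀ k (hk : k ∈ K), π ⟨k, hKN hk⟩ ∈ K' := fun k hk =>
    hK' ▸ Subgroup.mem_map_of_mem π (Subgroup.mem_subgroupOf.mpr hk)
  have hπJ : ∀ j (hj : j ∈ J), π ⟨j, hJN hj⟩ ∈ J' := fun j hj =>
    hJ' ▸ Subgroup.mem_map_of_mem π (Subgroup.mem_subgroupOf.mpr hj)
  obtain ⟨O₁, hO₁def⟩ : ∃ O₁ : Subgroup G, O₁ = K ⊓ (O'.comap π).map T.subtype := ⟨_, rfl⟩
  have hmem : ∀ x (hx : x ∈ K), x ∈ O₁ ↔ π ⟨x, hKN hx⟩ ∈ O' := by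
    intro x hx
    rw [hO₁def]
    constructor
    · rintro ⟨-, y, hy, hyx⟩
      have h1 : y = ⟨x, hKN hx⟩ := Subtype.ext hyx
      rw [← h1]
      exact hy
    · intro hx'
      exact ⟨hx, ⟨x, hKN hx⟩, hx', rfl⟩
  have hO₁K : O₁ ≤ K := hO₁def ▸ inf_le_left
  refine ⟨O₁, hO₁K, ?_, ?_, ⟨Nat.card O', odd_of_coprime_two' hO'odd, ?_⟩, ?_⟩
  · apply le_normalizer_of_conj_mem
    intro k hk x hx
    have hxK := hO₁K hx
    have hkx : k * x * k⁻¹ ∈ K := K.mul_mem (K.mul_mem hk hxK) (K.inv_mem hk)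
    rw [hmem _ hkx]
    have h1 : (⟨k * x * k⁻¹, hKN hkx⟩ : ↥T) =
        ⟨k, hKN hk⟩ * ⟨x, hKN hxK⟩ * (⟨k, hKN hk⟩ : ↥T)⁻¹ := rfl
    rw [h1, map_mul, map_mul, map_inv]
    exact (Subgroup.mem_normalizer_iff.mp (hK'O' (hπK k hk)) _).mp ((hmem x hxK).mp hx)
  · apply le_normalizer_of_conj_mem
    intro j hj x hx
    have hxK := hO₁K hx
    have hjx : j * x * j⁻¹ ∈ K := (Subgroup.mem_normalizer_iff.mp (h.norm hj) x).mp hxK
    rw [hmem _ hjx]
    have h1 : (⟨j * x * j⁻¹, hKN hjx⟩ : ↥T) =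
        ⟨j, hJN hj⟩ * ⟨x, hKN hxK⟩ * (⟨j, hJN hj⟩ : ↥T)⁻¹ := rfl
    rw [h1, map_mul, map_mul, map_inv]
    exact (Subgroup.mem_normalizer_iff.mp (hJ'O' (hπJ j hj)) _).mp ((hmem x hxK).mp hx)
  · intro x hx
    have hxK := hO₁K hx
    have h1 := (hmem x hxK).mp hx
    have h2 : (π ⟨x, hKN hxK⟩) ^ Nat.card O' = 1 := by
      have h3 := pow_card_eq_one' (G := ↥O') (x := ⟨_, h1⟩)
      have h4 := congrArg Subtype.val h3
      rw [Subgroup.coe_pow] at h4
      exact h4
    rw [← map_pow, hker] at h2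
    exact h2
  · rw [Subgroup.commutator_le]
    intro k hk j hj
    have hkj : ⁅k, j⁆ ∈ K := by
      have h1 := (Subgroup.mem_normalizer_iff.mp (h.norm hj) k⁻¹).mp (K.inv_mem hk)
      have h2 := K.mul_mem hk h1
      have h3 : ⁅k, j⁆ = k * (j * k⁻¹ * j⁻¹) := by
        rw [commutatorElement_def]
        group
      rw [h3]
      exact h2
    rw [hmem _ hkj]
    have h1 : (⟨⁅k, j⁆, hKN hkj⟩ : ↥T) = ⁅(⟨k, hKN hk⟩ : ↥T), ⟨j, hJN hj⟩⁆ := rfl
    rw [h1, map_commutatorElement]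
    exact hmain (Subgroup.commutator_mem_commutator (hπK k hk) (hπJ j hj))

/-- The induction hypothesis applied to a proper subgroup of `K` normalized by `K` and `J`. -/
theorem sc_sub (n : ℕ) (ih : SCStmt.{u} n) {K J Q M : Subgroup G}
    (h : SCHyp K J Q) (hcard : Nat.card K + Nat.card J ≤ n + 1) (hMK : M ≤ K) (hM : M ≠ K)
    (hKM : K ≤ Subgroup.normalizer (M : Set G)) (hJM : J ≤ Subgroup.normalizer (M : Set G)) :
    ⁅M, J⁆ ≤ Cfsg.Agent.Lib.Helper23.coreOf 2 K := by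
  haveI : Fact (Nat.Prime 2) := ⟨Nat.prime_two⟩
  have hH : SCHyp M J (Q ⊓ M) :=
    ⟨hJM, h.syl.inf_of_normal hMK hKM,
      h.cent.trans (Subgroup.centralizer_le (fun x hx => (inf_le_left : Q ⊓ M ≤ Q) hx)), h.res⟩
  have hlt : Nat.card M < Nat.card K := card_lt_of_lt' (lt_of_le_of_ne hMK hM)
  exact (ih G M J (Q ⊓ M) hH (by omega)).trans (coreOf_mono_of_normal 2 hMK hKM)

/-- A group with trivial odd core and a central Sylow 2-subgroup is a 2-group. -/
theorem le_of_central_sylow {K Q : Subgroup G} (h : IsSyl 2 Q K)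
    (hc : ∀ q ∈ Q, ∀ k ∈ K, q * k = k * q)
    (hO : Cfsg.Agent.Lib.Helper23.coreOf 2 K = ⊥) : K ≤ Q := by
  haveI : Fact (Nat.Prime 2) := ⟨Nat.prime_two⟩
  obtain ⟨P, hP⟩ := h.exists_sylow
  have hPc : Subgroup.normalizer ((P : Subgroup ↥K) : Set ↥K) ≤
      Subgroup.centralizer ((P : Subgroup ↥K) : Set ↥K) := by
    intro x _
    rw [Subgroup.mem_centralizer_iff]
    intro y hy
    have hy' : (y : G) ∈ Q := by
      have h1 : y ∈ Q.subgroupOf K := hP ▸ hy
      exact Subgroup.mem_subgroupOf.mp h1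
    exact Subtype.ext (hc y hy' x x.2)
  have hcomp := MonoidHom.ker_transferSylow_isComplement' P hPc
  have hnd := MonoidHom.not_dvd_card_ker_transferSylow P hPc
  have hker : (MonoidHom.transferSylow P hPc).ker = ⊥ := by
    have h1 : (MonoidHom.transferSylow P hPc).ker ≤ Cfsg.pPrimeCore 2 ↥K :=
      le_pPrimeCore_of_normal 2 inferInstance
        ((Nat.Prime.coprime_iff_not_dvd Nat.prime_two).mpr hnd).symm
    have h2 : Cfsg.pPrimeCore 2 ↥K = ⊥ := by
      have h3 : (Cfsg.pPrimeCore 2 ↥K).map K.subtype = ⊥ := hO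
      exact (Subgroup.map_eq_bot_iff_of_injective _ K.subtype_injective).mp h3
    rw [eq_bot_iff, ← h2]
    exact h1
  rw [hker, Subgroup.isComplement'_bot_left] at hcomp
  intro k hk
  have h1 : (⟨k, hk⟩ : ↥K) ∈ (P : Subgroup ↥K) := by
    rw [hcomp]
    trivial
  rw [hP] at h1
  exact Subgroup.mem_subgroupOf.mp h1

end Induction

/-! ### Elements acting trivially on a section -/

section TrivAct

variable {G : Type*} [Group G]

/-- The elements of `N_G(N)` acting trivially on `N / O`. -/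
def trivAct (N O : Subgroup G)
    (hO : Subgroup.normalizer (N : Set G) ≤ Subgroup.normalizer (O : Set G)) : Subgroup G where
  carrier := {g | g ∈ Subgroup.normalizer (N : Set G) ∧ ∀ a ∈ N, ⁅a, g⁆ ∈ O}
  one_mem' := ⟨Subgroup.one_mem _, fun a _ => by
    rw [commutatorElement_one_right]
    exact O.one_mem⟩
  mul_mem' := by
    rintro g h ⟨hg, hg'⟩ ⟨hh, hh'⟩
    refine ⟨Subgroup.mul_mem _ hg hh, fun a ha => ?_⟩
    have h1 : ⁅a, g * h⁆ = ⁅a, g⁆ * (g * ⁅a, h⁆ * g⁻¹) := by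
      simp only [commutatorElement_def]
      group
    rw [h1]
    exact O.mul_mem (hg' a ha) ((Subgroup.mem_normalizer_iff.mp (hO hg) _).mp (hh' a ha))
  inv_mem' := by
    rintro g ⟨hg, hg'⟩
    refine ⟨Subgroup.inv_mem _ hg, fun a ha => ?_⟩
    have ha' : g⁻¹ * a * g ∈ N := by
      have h0 := (Subgroup.mem_normalizer_iff.mp (Subgroup.inv_mem _ hg) a).mp ha
      rwa [inv_inv] at h0
    have h1 : ⁅a, g⁻¹⁆ = (⁅g⁻¹ * a * g, g⁆)⁻¹ := by
      simp only [commutatorElement_def]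
      group
    rw [h1]
    exact O.inv_mem (hg' _ ha')

theorem le_normalizer_trivAct (N O : Subgroup G)
    (hO : Subgroup.normalizer (N : Set G) ≤ Subgroup.normalizer (O : Set G)) :
    N ≤ Subgroup.normalizer ((trivAct N O hO : Subgroup G) : Set G) := by
  apply le_normalizer_of_conj_mem
  rintro n hn g ⟨hg, hg'⟩
  have hnN : n ∈ Subgroup.normalizer (N : Set G) := Subgroup.le_normalizer hn
  refine ⟨Subgroup.mul_mem _ (Subgroup.mul_mem _ hnN hg) (Subgroup.inv_mem _ hnN), fun a ha => ?_⟩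
  have ha' : n⁻¹ * a * n ∈ N := N.mul_mem (N.mul_mem (N.inv_mem hn) ha) hn
  have h1 : ⁅a, n * g * n⁻¹⁆ = n * ⁅n⁻¹ * a * n, g⁆ * n⁻¹ := by
    simp only [commutatorElement_def]
    group
  rw [h1]
  exact (Subgroup.mem_normalizer_iff.mp (hO hnN) _).mp (hg' _ ha')

theorem le_trivAct_self (N O : Subgroup G)
    (hO : Subgroup.normalizer (N : Set G) ≤ Subgroup.normalizer (O : Set G)) (hON : O ≤ N) :
    O ≤ trivAct N O hO := by
  intro o ho
  refine ⟨Subgroup.le_normalizer (hON ho), fun a ha => ?_⟩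
  have h1 : ⁅a, o⁆ = (a * o * a⁻¹) * o⁻¹ := by rw [commutatorElement_def]
  rw [h1]
  exact O.mul_mem ((Subgroup.mem_normalizer_iff.mp (hO (Subgroup.le_normalizer ha)) o).mp ho)
    (O.inv_mem ho)

/-- If every element of the perfect, 2-generated group `J` is a product `c ξ` with `c ∈ C`
and `ξ ∈ Ξ`, where `Ξ` normalizes `C` and has commutators in a group of odd order,
then `J ≤ C`. -/
theorem le_of_mem_mul_of_commutator_mem [Finite G] {C Ξ W J : Subgroup G}
    (hΞC : Ξ ≤ Subgroup.normalizer (C : Set G))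
    (hJ : ∀ j ∈ J, ∃ c ∈ C, ∃ ξ ∈ Ξ, j = c * ξ)
    (hΞ : ∀ y₁ ∈ Ξ, ∀ y₂ ∈ Ξ, ⁅y₁, y₂⁆ ∈ W)
    (hW : (Nat.card W).Coprime 2)
    (hres : TwoResid J) : J ≤ C := by
  classical
  obtain ⟨T, hTdef⟩ : ∃ T : Subgroup G, T = C ⊔ Ξ := ⟨_, rfl⟩
  have hCT : C ≤ T := hTdef ▸ le_sup_left
  have hΞT : Ξ ≤ T := hTdef ▸ le_sup_right
  have hJT : J ≤ T := by
    intro j hj
    obtain ⟨c, hc, ξ, hξ, rfl⟩ := hJ j hj
    exact T.mul_mem (hCT hc) (hΞT hξ)
  have hTn : T ≤ Subgroup.normalizer (C : Set G) := by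
    rw [hTdef]
    exact sup_le Subgroup.le_normalizer hΞC
  haveI hCn : (C.subgroupOf T).Normal :=
    (Subgroup.normal_subgroupOf_iff_le_normalizer hCT).mpr hTn
  obtain ⟨f, hfdef⟩ : ∃ f : ↥T →* ↥T ⧸ C.subgroupOf T,
      f = QuotientGroup.mk' (C.subgroupOf T) := ⟨_, rfl⟩
  have hker : ∀ x : ↥T, f x = 1 ↔ (x : G) ∈ C := by
    intro x
    rw [hfdef, QuotientGroup.mk'_apply, QuotientGroup.eq_one_iff, Subgroup.mem_subgroupOf]
  have h1 : (J.subgroupOf T).map f ≤ (Ξ.subgroupOf T).map f := by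
    rintro _ ⟨x, hx, rfl⟩
    obtain ⟨c, hc, ξ, hξ, hxe⟩ := hJ x.1 (Subgroup.mem_subgroupOf.mp hx)
    refine ⟨⟨ξ, hΞT hξ⟩, Subgroup.mem_subgroupOf.mpr hξ, ?_⟩
    have h2 : x = ⟨c, hCT hc⟩ * ⟨ξ, hΞT hξ⟩ := Subtype.ext hxe
    rw [h2, map_mul, (hker ⟨c, hCT hc⟩).mpr hc, one_mul]
  have h2 : ⁅(Ξ.subgroupOf T), (Ξ.subgroupOf T)⁆ ≤ W.subgroupOf T := by
    rw [Subgroup.commutator_le]
    intro y₁ hy₁ y₂ hy₂
    exact Subgroup.mem_subgroupOf.mpr
      (hΞ _ (Subgroup.mem_subgroupOf.mp hy₁) _ (Subgroup.mem_subgroupOf.mp hy₂))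
  have h3 : (J.subgroupOf T).map f ≤ (W.subgroupOf T).map f := by
    have hp := ((hres.subgroupOf hJT).map f).perf
    rw [← hp]
    refine (Subgroup.commutator_mono h1 h1).trans ?_
    rw [← Subgroup.map_commutator]
    exact Subgroup.map_mono h2
  have hodd : (Nat.card ((W.subgroupOf T).map f)).Coprime 2 := by
    have hd1 : Nat.card ((W.subgroupOf T).map f) ∣ Nat.card (W.subgroupOf T) :=
      Subgroup.card_map_dvd _ f
    have hd2 : Nat.card (W.subgroupOf T) ∣ Nat.card W := by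
      rw [← Subgroup.card_map_of_injective T.subtype_injective, Subgroup.subgroupOf_map_subtype]
      exact Subgroup.card_dvd_of_le inf_le_left
    exact Nat.Coprime.coprime_dvd_left (hd1.trans hd2) hW
  refine hres.gen.trans ?_
  rw [Subgroup.closure_le]
  rintro x ⟨hxJ, k, hxk⟩
  have hy : f ⟨x, hJT hxJ⟩ ∈ (W.subgroupOf T).map f :=
    h3 ⟨⟨x, hJT hxJ⟩, Subgroup.mem_subgroupOf.mpr hxJ, rfl⟩
  have hyk : (f ⟨x, hJT hxJ⟩) ^ 2 ^ k = 1 := by
    rw [← map_pow]
    have h4 : (⟨x, hJT hxJ⟩ : ↥T) ^ 2 ^ k = 1 := by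
      apply Subtype.ext
      rw [Subgroup.coe_pow]
      exact hxk
    rw [h4, map_one]
  have hy1 : f ⟨x, hJT hxJ⟩ = 1 :=
    Cfsg.Agent.Lib.Helper34.eq_one_of_pow_eq_one_of_coprime hyk
      (Nat.Coprime.coprime_dvd_left (Subgroup.orderOf_dvd_natCard _ hy) hodd)
  exact (hker _).mp hy1

end TrivAct

/-! ### The local claim in the simple case -/

section Claim

variable {G : Type u} [Group G] [Finite G]

/-- The algebraic heart of the local claim: if a conjugate `x⁻¹ J x` acts trivially on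
`N / O(N)`, `J` centralizes the 2-subgroup `R` of `N` and acts trivially on
`N_N(R)` modulo a normal subgroup of odd order, then `J` acts trivially on `N / O(N)`. -/
theorem sc_claim_alg {N R J OR : Subgroup G} (x : G)
    (hJN : J ≤ Subgroup.normalizer (N : Set G))
    (hRN : R ≤ N) (hR2 : IsPGroup 2 R)
    (hJR : J ≤ Subgroup.centralizer (R : Set G))
    (hres : TwoResid J)
    (hmN : ∀ j ∈ J, (x⁻¹ * j * x)⁻¹ * j ∈ N)
    (hJ'N : ∀ j ∈ J, x⁻¹ * j * x ∈ Subgroup.normalizer (N : Set G))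
    (hON : ∀ j ∈ J, ∀ a ∈ N, ⁅a, x⁻¹ * j * x⁆ ∈ Cfsg.Agent.Lib.Helper23.coreOf 2 N)
    (hORodd : (Nat.card OR).Coprime 2)
    (hORn : N ⊓ Subgroup.normalizer (R : Set G) ≤ Subgroup.normalizer (OR : Set G))
    (hOR : ∀ j ∈ J, ∀ a ∈ N ⊓ Subgroup.normalizer (R : Set G), ⁅a, j⁆ ∈ OR) :
    ⁅N, J⁆ ≤ Cfsg.Agent.Lib.Helper23.coreOf 2 N := by
  classical
  haveI : Fact (Nat.Prime 2) := ⟨Nat.prime_two⟩
  obtain ⟨ON, hONdef⟩ : ∃ ON : Subgroup G, ON = Cfsg.Agent.Lib.Helper23.coreOf 2 N := ⟨_, rfl⟩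
  rw [← hONdef] at hON ⊢
  have hONN : ON ≤ N := hONdef ▸ Cfsg.Agent.Lib.Helper23.coreOf_le 2 N
  have hONodd : (Nat.card ON).Coprime 2 := hONdef ▸ coreOf_coprime' 2 N
  have hNON : Subgroup.normalizer (N : Set G) ≤ Subgroup.normalizer (ON : Set G) :=
    hONdef ▸ coreOf_normalizer_le 2 N
  obtain ⟨X, hXdef⟩ : ∃ X : Subgroup G, X = N ⊓ Subgroup.normalizer (R : Set G) := ⟨_, rfl⟩
  rw [← hXdef] at hORn hOR
  have hXN : X ≤ N := hXdef ▸ inf_le_left
  obtain ⟨W, hWdef⟩ : ∃ W : Subgroup G, W = Cfsg.Agent.Lib.Helper23.coreOf 2 X := ⟨_, rfl⟩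
  have hWodd : (Nat.card W).Coprime 2 := hWdef ▸ coreOf_coprime' 2 X
  have hXW : Subgroup.normalizer (X : Set G) ≤ Subgroup.normalizer (W : Set G) :=
    hWdef ▸ coreOf_normalizer_le 2 X
  obtain ⟨C, hCdef⟩ : ∃ C : Subgroup G, C = trivAct N ON hNON := ⟨_, rfl⟩
  obtain ⟨Ξ, hΞdef⟩ : ∃ Ξ : Subgroup G, Ξ = X ⊓ trivAct X W hXW := ⟨_, rfl⟩
  suffices hJC : J ≤ C by
    rw [Subgroup.commutator_le]
    intro a ha j hj
    have h0 := hJC hj
    rw [hCdef] at h0
    exact h0.2 a ha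
  have hONC : ON ≤ C := by
    rw [hCdef]
    exact le_trivAct_self N ON hNON hONN
  have hRnON : R ≤ Subgroup.normalizer (ON : Set G) :=
    (hRN.trans Subgroup.le_normalizer).trans hNON
  have hW1 : OR ⊓ X ≤ W := by
    rw [hWdef]
    apply le_coreOf 2 inf_le_right
    · intro y hy
      exact mem_normalizer_inf' (hORn hy) (Subgroup.le_normalizer hy)
    · exact Nat.Coprime.coprime_dvd_left (Subgroup.card_dvd_of_le inf_le_left) hORodd
  have hW2 : ON ⊓ X ≤ W := by
    rw [hWdef]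
    apply le_coreOf 2 inf_le_right
    · intro y hy
      exact mem_normalizer_inf' (hNON (Subgroup.le_normalizer (hXN hy)))
        (Subgroup.le_normalizer hy)
    · exact Nat.Coprime.coprime_dvd_left (Subgroup.card_dvd_of_le inf_le_left) hONodd
  -- `R` is a Sylow 2-subgroup of `ON R`
  obtain ⟨B, hBdef⟩ : ∃ B : Subgroup G, B = ON ⊔ R := ⟨_, rfl⟩
  have hRB : R ≤ B := hBdef ▸ le_sup_right
  have hsylRB : IsSyl 2 R B := by
    obtain ⟨S, hRS, hS⟩ := exists_isSyl_ge hRB hR2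
    have hSR : S ≤ R := by
      intro s hs
      have hsB : s ∈ ON ⊔ R := hBdef ▸ hS.1 hs
      obtain ⟨o, ho, r, hr, rfl⟩ :=
        Cfsg.Agent.Lib.Helper32.exists_mul_of_mem_sup_of_le_normalizer hRnON hsB
      have ho' : o ∈ S := by
        have h0 := S.mul_mem hs (S.inv_mem (hRS hr))
        rwa [mul_inv_cancel_right] at h0
      have ho1 : o = 1 :=
        Cfsg.Agent.Lib.Helper31.eq_one_of_mem_pGroup_of_mem_coprime hS.2.1 hONodd ho' ho
      rw [ho1, one_mul]
      exact hr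
    have hSeq : S = R := le_antisymm hSR hRS
    rw [← hSeq]
    exact hS
  apply le_of_mem_mul_of_commutator_mem (Ξ := Ξ) (W := W) ?_ ?_ ?_ hWodd hres
  · rw [hCdef, hΞdef]
    exact (inf_le_left.trans hXN).trans (le_normalizer_trivAct N ON hNON)
  · intro j hj
    obtain ⟨j', hj'def⟩ : ∃ j' : G, j' = x⁻¹ * j * x := ⟨_, rfl⟩
    have hj'C : j' ∈ C := by
      rw [hCdef, hj'def]
      exact ⟨hJ'N j hj, hON j hj⟩
    obtain ⟨m, hmdef⟩ : ∃ m : G, m = j'⁻¹ * j := ⟨_, rfl⟩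
    have hmN' : m ∈ N := by
      rw [hmdef, hj'def]
      exact hmN j hj
    have hjr : ∀ r ∈ R, j * r⁻¹ * j⁻¹ = r⁻¹ := by
      intro r hr
      have h1 := Subgroup.mem_centralizer_iff.mp (hJR hj) r hr
      calc j * r⁻¹ * j⁻¹ = r⁻¹ * (r * j) * r⁻¹ * j⁻¹ := by group
        _ = r⁻¹ * (j * r) * r⁻¹ * j⁻¹ := by rw [h1]
        _ = r⁻¹ := by group
    have hj'invC : j'⁻¹ ∈ C := C.inv_mem hj'C
    have hrm : ∀ r ∈ R, ⁅r, m⁆ ∈ ON := by
      intro r hr
      have h1 : ⁅r, m⁆ = ⁅r, j'⁻¹⁆ := by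
        rw [hmdef, commutatorElement_def, commutatorElement_def]
        calc r * (j'⁻¹ * j) * r⁻¹ * (j'⁻¹ * j)⁻¹ = r * j'⁻¹ * (j * r⁻¹ * j⁻¹) * j' := by group
          _ = r * j'⁻¹ * r⁻¹ * j' := by rw [hjr r hr]
          _ = r * j'⁻¹ * r⁻¹ * j'⁻¹⁻¹ := by rw [inv_inv]
      rw [h1]
      have h0 := hj'invC
      rw [hCdef] at h0
      exact h0.2 r (hRN hr)
    have hmRB : R.map (MulAut.conj m).toMonoidHom ≤ B := by
      rintro _ ⟨r, hr, rfl⟩
      show m * r * m⁻¹ ∈ B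
      have h1 := hrm r⁻¹ (R.inv_mem hr)
      rw [commutatorElement_def, inv_inv] at h1
      have h2 : m * r * m⁻¹ = r * (r⁻¹ * m * r * m⁻¹) := by group
      rw [h2, hBdef]
      exact Subgroup.mul_mem _ (Subgroup.mem_sup_right hr) (Subgroup.mem_sup_left h1)
    obtain ⟨b, hbB, hb⟩ := hsylRB.exists_conj_le hmRB (hR2.map _)
    obtain ⟨o, ho, r₀, hr₀, hbe⟩ :=
      Cfsg.Agent.Lib.Helper32.exists_mul_of_mem_sup_of_le_normalizer hRnON
        (hBdef ▸ hbB : b ∈ ON ⊔ R)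
    obtain ⟨o', ho'def⟩ : ∃ o' : G, o' = r₀⁻¹ * o * r₀ := ⟨_, rfl⟩
    have ho'ON : o' ∈ ON := by
      rw [ho'def]
      have h0 := (Subgroup.mem_normalizer_iff.mp (hRnON (R.inv_mem hr₀)) o).mp ho
      rwa [inv_inv] at h0
    obtain ⟨x₁, hx₁def⟩ : ∃ x₁ : G, x₁ = o' * m := ⟨_, rfl⟩
    have hx₁R : x₁ ∈ Subgroup.normalizer (R : Set G) := by
      apply Subgroup.mem_normalizer_fintype
      intro r hr
      have h1 := hb (m * r * m⁻¹) ⟨r, hr, rfl⟩
      have h2 : x₁ * r * x₁⁻¹ = r₀⁻¹ * (b * (m * r * m⁻¹) * b⁻¹) * r₀ := by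
        rw [hx₁def, ho'def, hbe]
        group
      rw [h2]
      exact R.mul_mem (R.mul_mem (R.inv_mem hr₀) h1) hr₀
    have hx₁N : x₁ ∈ N := by
      rw [hx₁def]
      exact N.mul_mem (hONN ho'ON) hmN'
    have hx₁X : x₁ ∈ X := by
      rw [hXdef]
      exact ⟨hx₁N, hx₁R⟩
    have hjeq : j = (j' * o'⁻¹) * x₁ := by
      rw [hx₁def, hmdef]
      group
    have hcC : j' * o'⁻¹ ∈ C := C.mul_mem hj'C (C.inv_mem (hONC ho'ON))
    refine ⟨j' * o'⁻¹, hcC, x₁, ?_, hjeq⟩
    rw [hΞdef]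
    refine ⟨hx₁X, Subgroup.le_normalizer hx₁X, fun a ha => ?_⟩
    obtain ⟨c', hc'def⟩ : ∃ c' : G, c' = x₁⁻¹ * (j' * o'⁻¹) * x₁ := ⟨_, rfl⟩
    have hc'C : c' ∈ C := by
      rw [hc'def]
      have hx₁nC : x₁⁻¹ ∈ Subgroup.normalizer ((C : Subgroup G) : Set G) := by
        rw [hCdef]
        exact Subgroup.inv_mem _ (le_normalizer_trivAct N ON hNON hx₁N)
      have h0 := (Subgroup.mem_normalizer_iff.mp hx₁nC _).mp hcC
      rwa [inv_inv] at h0
    have hjeq' : j = x₁ * c' := by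
      rw [hc'def]
      nth_rewrite 1 [hjeq]
      group
    have haN : a ∈ N := hXN ha
    have h1 : ⁅a, x₁⁆ = ⁅a, j⁆ * (x₁ * ⁅a, c'⁆ * x₁⁻¹)⁻¹ := by
      rw [hjeq']
      simp only [commutatorElement_def]
      group
    have hwR : ⁅a, j⁆ ∈ OR := hOR j hj a ha
    have hwRX : ⁅a, j⁆ ∈ X := by
      have hjX : j ∈ Subgroup.normalizer (X : Set G) := by
        rw [hXdef]
        exact mem_normalizer_inf' (hJN hj)
          (Subgroup.le_normalizer (Subgroup.centralizer_le_normalizer _ (hJR hj)))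
      have h2 := (Subgroup.mem_normalizer_iff.mp hjX a⁻¹).mp (X.inv_mem ha)
      have h3 : ⁅a, j⁆ = a * (j * a⁻¹ * j⁻¹) := by
        rw [commutatorElement_def]
        group
      rw [h3]
      exact X.mul_mem ha h2
    have hc'a : ⁅a, c'⁆ ∈ ON := by
      have h0 := hc'C
      rw [hCdef] at h0
      exact h0.2 a haN
    have hwN : x₁ * ⁅a, c'⁆ * x₁⁻¹ ∈ ON :=
      (Subgroup.mem_normalizer_iff.mp (hNON (Subgroup.le_normalizer hx₁N)) _).mp hc'a
    have hax₁X : ⁅a, x₁⁆ ∈ X := by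
      rw [commutatorElement_def]
      exact X.mul_mem (X.mul_mem (X.mul_mem ha hx₁X) (X.inv_mem ha)) (X.inv_mem hx₁X)
    have hwNX : x₁ * ⁅a, c'⁆ * x₁⁻¹ ∈ X := by
      have h2 : x₁ * ⁅a, c'⁆ * x₁⁻¹ = (⁅a, x₁⁆)⁻¹ * ⁅a, j⁆ := by
        rw [h1]
        group
      rw [h2]
      exact X.mul_mem (X.inv_mem hax₁X) hwRX
    rw [h1]
    exact W.mul_mem (hW1 ⟨hwR, hwRX⟩) (W.inv_mem (hW2 ⟨hwN, hwNX⟩))
  · intro y₁ hy₁ y₂ hy₂
    rw [hΞdef] at hy₁ hy₂
    exact hy₂.2.2 y₁ hy₁.1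

/-- **Local claim.** In the simple case, `J` acts trivially on `N_K(D) / O(N_K(D))` for every
nontrivial subgroup `D` of `Q`. -/
theorem sc_claim (n : ℕ) (ih : SCStmt.{u} n) {K J Q : Subgroup G}
    (h : SCHyp K J Q) (hcard : Nat.card K + Nat.card J ≤ n + 1)
    (hsimple : ∀ M : Subgroup G, M ≤ K → K ≤ Subgroup.normalizer (M : Set G) → M = ⊥ ∨ M = K)
    (hQK : Q ≠ K) :
    ∀ (m : ℕ) (D : Subgroup G), D ≤ Q → D ≠ ⊥ →
      Nat.card Q - Nat.card (Q ⊓ Subgroup.normalizer (D : Set G) : Subgroup G) ≤ m →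
      ⁅K ⊓ Subgroup.normalizer (D : Set G), J⁆ ≤
        Cfsg.Agent.Lib.Helper23.coreOf 2 (K ⊓ Subgroup.normalizer (D : Set G)) := by
  classical
  haveI : Fact (Nat.Prime 2) := ⟨Nat.prime_two⟩
  have hQle : Q ≤ K := h.syl.1
  have hQ2 : IsPGroup 2 Q := h.syl.2.1
  intro m
  induction m using Nat.strong_induction_on with
  | _ m ihm =>
    intro D hDQ hD1 hm
    obtain ⟨N, hNdef⟩ : ∃ N : Subgroup G, N = K ⊓ Subgroup.normalizer (D : Set G) := ⟨_, rfl⟩
    obtain ⟨R, hRdef⟩ : ∃ R : Subgroup G, R = Q ⊓ Subgroup.normalizer (D : Set G) := ⟨_, rfl⟩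
    rw [← hNdef]
    rw [← hRdef] at hm
    have hNK : N ≤ K := hNdef ▸ inf_le_left
    have hRQ' : R ≤ Q := hRdef ▸ inf_le_left
    have hRN : R ≤ N := by
      rw [hRdef, hNdef]
      exact inf_le_inf_right _ hQle
    have hR2 : IsPGroup 2 R := hQ2.to_le hRQ'
    have hDR : D ≤ R := by
      rw [hRdef]
      exact le_inf hDQ Subgroup.le_normalizer
    have hR1 : R ≠ ⊥ := fun h0 => hD1 (le_bot_iff.mp (h0 ▸ hDR))
    have hNne : N ≠ K := by
      intro hN
      have h1 : K ≤ Subgroup.normalizer (D : Set G) := by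
        have h2 : N ≤ Subgroup.normalizer (D : Set G) := hNdef ▸ inf_le_right
        rwa [hN] at h2
      rcases hsimple D (hDQ.trans hQle) h1 with h2 | h2
      · exact hD1 h2
      · exact hQK (le_antisymm hQle (h2 ▸ hDQ))
    have hJD : J ≤ Subgroup.centralizer (D : Set G) :=
      h.cent.trans (Subgroup.centralizer_le hDQ)
    have hcentN : ∀ y : G, y ∈ Subgroup.normalizer (K : Set G) →
        y ∈ Subgroup.centralizer (D : Set G) → y ∈ Subgroup.normalizer (N : Set G) := by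
      intro y hyK hyD
      rw [hNdef]
      exact mem_normalizer_inf' hyK
        (Subgroup.le_normalizer (Subgroup.centralizer_le_normalizer _ hyD))
    have hJN : J ≤ Subgroup.normalizer (N : Set G) := fun j hj => hcentN j (h.norm hj) (hJD hj)
    have hJR : J ≤ Subgroup.centralizer (R : Set G) := h.cent.trans (Subgroup.centralizer_le hRQ')
    have hlt := card_lt_of_lt' (lt_of_le_of_ne hNK hNne)
    by_cases hsyl : 2 ∣ R.relIndex N
    swap
    · have hH : SCHyp N J R := ⟨hJN, ⟨hRN, hR2, hsyl⟩, hJR, h.res⟩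
      exact ih G N J R hH (by omega)
    · obtain ⟨R₁, hRR₁, hR₁⟩ := exists_isSyl_ge hRN hR2
      have hR₁ne : R₁ ≠ R := by
        intro h0
        apply hR₁.2.2
        rw [h0]
        exact hsyl
      obtain ⟨x, hxK, hx⟩ := h.syl.exists_conj_le (hR₁.1.trans hNK) hR₁.2.1
      obtain ⟨J', hJ'def⟩ : ∃ J' : Subgroup G, J' = J.map (MulAut.conj x⁻¹).toMonoidHom :=
        ⟨_, rfl⟩
      have hJ'mem : ∀ j ∈ J, x⁻¹ * j * x ∈ J' := by
        intro j hj
        rw [hJ'def]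
        refine ⟨j, hj, ?_⟩
        show x⁻¹ * j * x⁻¹⁻¹ = x⁻¹ * j * x
        rw [inv_inv]
      have hJ'elim : ∀ y ∈ J', ∃ j ∈ J, y = x⁻¹ * j * x := by
        intro y hy
        rw [hJ'def] at hy
        obtain ⟨j, hj, rfl⟩ := hy
        refine ⟨j, hj, ?_⟩
        show x⁻¹ * j * x⁻¹⁻¹ = x⁻¹ * j * x
        rw [inv_inv]
      have hJ'R₁ : J' ≤ Subgroup.centralizer (R₁ : Set G) := by
        intro y hy
        obtain ⟨j, hj, rfl⟩ := hJ'elim y hy
        rw [Subgroup.mem_centralizer_iff]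
        intro r hr
        have h1 := Subgroup.mem_centralizer_iff.mp (h.cent hj) _ (hx r hr)
        calc r * (x⁻¹ * j * x) = x⁻¹ * ((x * r * x⁻¹) * j) * x := by group
          _ = x⁻¹ * (j * (x * r * x⁻¹)) * x := by rw [h1]
          _ = x⁻¹ * j * x * r := by group
      have hxNK : x ∈ Subgroup.normalizer (K : Set G) := Subgroup.le_normalizer hxK
      have hJ'K : J' ≤ Subgroup.normalizer (K : Set G) := by
        intro y hy
        obtain ⟨j, hj, rfl⟩ := hJ'elim y hy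
        exact Subgroup.mul_mem _ (Subgroup.mul_mem _ (Subgroup.inv_mem _ hxNK) (h.norm hj)) hxNK
      have hJ'D : J' ≤ Subgroup.centralizer (D : Set G) :=
        hJ'R₁.trans (Subgroup.centralizer_le (hDR.trans hRR₁))
      have hJ'N : J' ≤ Subgroup.normalizer (N : Set G) :=
        fun y hy => hcentN y (hJ'K hy) (hJ'D hy)
      have hJ'res : TwoResid J' := hJ'def ▸ h.res.map _
      have hJ'card : Nat.card J' = Nat.card J := by
        rw [hJ'def]
        exact card_map_conj' J x⁻¹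
      have hH' : SCHyp N J' R₁ := ⟨hJ'N, hR₁, hJ'R₁, hJ'res⟩
      have hON := ih G N J' R₁ hH' (by omega)
      have hRQ : R ≠ Q := by
        intro h0
        apply hR₁ne
        have h1 := h.syl.eq_of_le (h0 ▸ hRR₁) (hR₁.1.trans hNK) hR₁.2.1
        rw [h1, h0]
      have hRQlt : R < Q := lt_of_le_of_ne hRQ' hRQ
      obtain ⟨g, hgQ, hgR, hgN⟩ :=
        Cfsg.Agent.Lib.Helper53.exists_mem_normalizer_not_mem hQ2 hRQlt
      have hmeas : Nat.card R <
          Nat.card (Q ⊓ Subgroup.normalizer (R : Set G) : Subgroup G) := by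
        apply card_lt_of_lt'
        refine lt_of_le_of_ne (le_inf hRQlt.le Subgroup.le_normalizer) ?_
        intro h0
        apply hgR
        rw [h0]
        exact ⟨hgQ, hgN⟩
      have hmeas2 : Nat.card (Q ⊓ Subgroup.normalizer (R : Set G) : Subgroup G) ≤ Nat.card Q :=
        Subgroup.card_le_of_le inf_le_left
      have hOR := ihm (Nat.card Q - Nat.card (Q ⊓ Subgroup.normalizer (R : Set G) : Subgroup G))
        (by omega) R hRQ' hR1 le_rfl
      obtain ⟨KR, hKRdef⟩ : ∃ KR : Subgroup G, KR = K ⊓ Subgroup.normalizer (R : Set G) :=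
        ⟨_, rfl⟩
      rw [← hKRdef] at hOR
      have hXKR : N ⊓ Subgroup.normalizer (R : Set G) ≤ KR := by
        rw [hKRdef]
        exact inf_le_inf_right _ hNK
      apply sc_claim_alg (OR := Cfsg.Agent.Lib.Helper23.coreOf 2 KR) x hJN hRN hR2 hJR h.res
      · intro j hj
        have hj' := hJ'mem j hj
        rw [hNdef]
        refine ⟨?_, ?_⟩
        · have h1 : (x⁻¹ * j * x)⁻¹ * j = x⁻¹ * (j⁻¹ * x * j) := by group
          rw [h1]
          have h2 := (Subgroup.mem_normalizer_iff.mp (Subgroup.inv_mem _ (h.norm hj)) x).mp hxK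
          rw [inv_inv] at h2
          exact K.mul_mem (K.inv_mem hxK) h2
        · apply Subgroup.centralizer_le_normalizer
          exact Subgroup.mul_mem _ (Subgroup.inv_mem _ (hJ'D hj')) (hJD hj)
      · intro j hj
        exact hJ'N (hJ'mem j hj)
      · intro j hj a ha
        exact hON (Subgroup.commutator_mem_commutator ha (hJ'mem j hj))
      · exact coreOf_coprime' 2 KR
      · exact hXKR.trans (Subgroup.le_normalizer.trans (coreOf_normalizer_le 2 KR))
      · intro j hj a ha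
        exact hOR (Subgroup.commutator_mem_commutator (hXKR ha) hj)

/-- In the simple case every involution of `J` centralizes `K` (by the `Z*`-theorem). -/
theorem sc_iso (n : ℕ) (ih : SCStmt.{u} n) {K J Q : Subgroup G}
    (h : SCHyp K J Q) (hcard : Nat.card K + Nat.card J ≤ n + 1)
    (hO : Cfsg.Agent.Lib.Helper23.coreOf 2 K = ⊥)
    (hsimple : ∀ M : Subgroup G, M ≤ K → K ≤ Subgroup.normalizer (M : Set G) → M = ⊥ ∨ M = K)
    (hQK : Q ≠ K) {u : G} (huJ : u ∈ J) (hu2 : orderOf u = 2) :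
    u ∈ Subgroup.centralizer (K : Set G) := by
  classical
  haveI : Fact (Nat.Prime 2) := ⟨Nat.prime_two⟩
  have hclaim := fun D hDQ hD1 => sc_claim n ih h hcard hsimple hQK _ D hDQ hD1 le_rfl
  have huK : u ∈ Subgroup.normalizer (K : Set G) := h.norm huJ
  have huQ : u ∈ Subgroup.centralizer (Q : Set G) := h.cent huJ
  have hu_sq : u ^ 2 = 1 := by
    rw [← hu2]
    exact pow_orderOf_eq_one u
  have hu1 : u ≠ 1 := by
    intro h0
    rw [h0, orderOf_one] at hu2
    omega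
  obtain ⟨Z, hZdef⟩ : ∃ Z : Subgroup G, Z = Subgroup.zpowers u := ⟨_, rfl⟩
  have hZmem : ∀ z ∈ Z, z = 1 ∨ z = u := by
    intro z hz
    rw [hZdef] at hz
    obtain ⟨k, rfl⟩ := Subgroup.mem_zpowers_iff.mp hz
    exact Cfsg.Agent.Lib.Helper53.zpow_eq_one_or_self_of_sq_eq_one hu_sq k
  have huZ : u ∈ Z := hZdef ▸ Subgroup.mem_zpowers u
  have hZK : Z ≤ Subgroup.normalizer (K : Set G) := by
    rw [hZdef, Subgroup.zpowers_le]
    exact huK
  obtain ⟨H, hHdef⟩ : ∃ H : Subgroup G, H = K ⊔ Z := ⟨_, rfl⟩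
  have hKH : K ≤ H := hHdef ▸ le_sup_left
  have hZH : Z ≤ H := hHdef ▸ le_sup_right
  have huH : u ∈ H := hZH huZ
  have hHmem : ∀ g ∈ H, ∃ k ∈ K, ∃ z ∈ Z, g = k * z := by
    intro g hg
    exact Cfsg.Agent.Lib.Helper32.exists_mul_of_mem_sup_of_le_normalizer hZK (hHdef ▸ hg)
  have hZ2 : IsPGroup 2 Z := by
    rw [hZdef]
    apply IsPGroup.of_card (n := 1)
    rw [Nat.card_zpowers, hu2, pow_one]
  have hZQ : Z ≤ Subgroup.normalizer (Q : Set G) := by
    rw [hZdef, Subgroup.zpowers_le]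
    exact Subgroup.centralizer_le_normalizer _ huQ
  have hQZ2 : IsPGroup 2 (Q ⊔ Z : Subgroup G) := IsPGroup.to_sup_of_normal_left' h.syl.2.1 hZ2 hZQ
  obtain ⟨P, hP⟩ := (hQZ2.comap_subtype (K := H)).exists_le_sylow
  obtain ⟨P', hP'def⟩ : ∃ P' : Subgroup G, P' = (P : Subgroup ↥H).map H.subtype := ⟨_, rfl⟩
  have hP'2 : IsPGroup 2 P' := hP'def ▸ P.2.map _
  have hP'H : P' ≤ H := hP'def ▸ Subgroup.map_subtype_le _
  have hQP' : Q ≤ P' := by
    intro q hq
    rw [hP'def]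
    exact ⟨⟨q, hKH (h.syl.1 hq)⟩,
      hP (Subgroup.mem_subgroupOf.mpr (Subgroup.mem_sup_left hq)), rfl⟩
  have huP' : u ∈ P' := by
    rw [hP'def]
    exact ⟨⟨u, huH⟩, hP (Subgroup.mem_subgroupOf.mpr (Subgroup.mem_sup_right huZ)), rfl⟩
  have hP'K : P' ⊓ K ≤ Q := by
    have h1 := h.syl.eq_of_le (le_inf hQP' h.syl.1) inf_le_right (hP'2.to_le inf_le_left)
    exact h1.le
  have hmemP : ∀ y : ↥H, y ∈ P ↔ (y : G) ∈ P' := by
    intro y
    rw [hP'def]
    constructor
    · intro hy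
      exact ⟨y, hy, rfl⟩
    · rintro ⟨z, hz, hzy⟩
      have h0 : z = y := Subtype.ext hzy
      rw [← h0]
      exact hz
  have hloc : ∀ E : Subgroup ↥H, E ≤ (P : Subgroup ↥H) → (⟨u, huH⟩ : ↥H) ∈ E →
      ∀ nn ∈ Subgroup.normalizer (E : Set ↥H), nn * ⟨u, huH⟩ * nn⁻¹ = ⟨u, huH⟩ := by
    intro E hEP huE nn hnn
    apply Subtype.ext
    show (nn : G) * u * (nn : G)⁻¹ = u
    obtain ⟨E', hE'def⟩ : ∃ E' : Subgroup G, E' = E.map H.subtype := ⟨_, rfl⟩
    have hE'P : E' ≤ P' := by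
      rw [hE'def, hP'def]
      exact Subgroup.map_mono hEP
    have huE' : u ∈ E' := by
      rw [hE'def]
      exact ⟨⟨u, huH⟩, huE, rfl⟩
    have hE'2 : IsPGroup 2 E' := hP'2.to_le hE'P
    have hnE' : ∀ e ∈ E', (nn : G) * e * (nn : G)⁻¹ ∈ E' := by
      intro e he
      rw [hE'def] at he ⊢
      obtain ⟨e₀, he₀, rfl⟩ := he
      exact ⟨nn * e₀ * nn⁻¹, (Subgroup.mem_normalizer_iff.mp hnn e₀).mp he₀, rfl⟩
    obtain ⟨k, hk, z, hz, hnkz⟩ := hHmem nn.1 nn.2
    have hzE' : z ∈ E' := by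
      rcases hZmem z hz with h0 | h0
      · rw [h0]
        exact E'.one_mem
      · rw [h0]
        exact huE'
    have hzu : z * u * z⁻¹ = u := by
      rcases hZmem z hz with h0 | h0
      · rw [h0]
        group
      · rw [h0]
        group
    have hnu : (nn : G) * u * (nn : G)⁻¹ = k * u * k⁻¹ := by
      rw [hnkz]
      calc k * z * u * (k * z)⁻¹ = k * (z * u * z⁻¹) * k⁻¹ := by group
        _ = k * u * k⁻¹ := by rw [hzu]
    rw [hnu]
    have hkuE : k * u * k⁻¹ ∈ E' := hnu ▸ hnE' u huE'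
    obtain ⟨D, hDdef⟩ : ∃ D : Subgroup G, D = E' ⊓ K := ⟨_, rfl⟩
    by_cases hD1 : D = ⊥
    · have hE'sub : ∀ e ∈ E', e = 1 ∨ e = u := by
        intro e he
        obtain ⟨k₁, hk₁, z₁, hz₁, rfl⟩ := hHmem e (hP'H (hE'P he))
        have hz₁E : z₁ ∈ E' := by
          rcases hZmem z₁ hz₁ with h0 | h0
          · rw [h0]
            exact E'.one_mem
          · rw [h0]
            exact huE'
        have hk₁E : k₁ ∈ E' := by
          have h0 := E'.mul_mem he (E'.inv_mem hz₁E)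
          rwa [mul_inv_cancel_right] at h0
        have hk₁D : k₁ ∈ D := by
          rw [hDdef]
          exact ⟨hk₁E, hk₁⟩
        rw [hD1, Subgroup.mem_bot] at hk₁D
        rw [hk₁D, one_mul]
        exact hZmem z₁ hz₁
      rcases hE'sub _ hkuE with h0 | h0
      · exfalso
        apply hu1
        have h1 : u = k⁻¹ * (k * u * k⁻¹) * k := by group
        rw [h1, h0]
        group
      · exact h0
    · have hDQ : D ≤ Q := by
        rw [hDdef]
        exact (inf_le_inf_right K hE'P).trans hP'K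
      have hkD : k ∈ K ⊓ Subgroup.normalizer (D : Set G) := by
        refine ⟨hk, ?_⟩
        have hkE' : k ∈ Subgroup.normalizer (E' : Set G) := by
          have hnnE' : (nn : G) ∈ Subgroup.normalizer (E' : Set G) :=
            Subgroup.mem_normalizer_fintype hnE'
          have h0 : k = (nn : G) * z⁻¹ := by
            rw [hnkz]
            group
          rw [h0]
          exact Subgroup.mul_mem _ hnnE' (Subgroup.inv_mem _ (Subgroup.le_normalizer hzE'))
        rw [hDdef]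
        exact mem_normalizer_inf' hkE' (Subgroup.le_normalizer hk)
      have hc := hclaim D hDQ hD1 (Subgroup.commutator_mem_commutator hkD huJ)
      have hcE : ⁅k, u⁆ ∈ E' := by
        rw [commutatorElement_def]
        exact E'.mul_mem hkuE (E'.inv_mem huE')
      have h1 : ⁅k, u⁆ = 1 :=
        Cfsg.Agent.Lib.Helper31.eq_one_of_mem_pGroup_of_mem_coprime hE'2
          (coreOf_coprime' 2 _) hcE hc
      rw [commutatorElement_def] at h1
      calc k * u * k⁻¹ = (k * u * k⁻¹ * u⁻¹) * u := by group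
        _ = u := by rw [h1, one_mul]
  have hiso := isolated_of_local P ⟨u, huH⟩ ((hmemP _).mpr huP') hloc
  have hord : orderOf (⟨u, huH⟩ : ↥H) = 2 := by
    rw [Subgroup.orderOf_mk]
    exact hu2
  obtain ⟨Nz, hNzn, hNzodd, hNz⟩ :=
    Cfsg.Agent.S0215.result P ⟨u, huH⟩ hord ((hmemP _).mpr huP') hiso
  obtain ⟨Wz, hWzdef⟩ : ∃ Wz : Subgroup G, Wz = Nz.map H.subtype ⊓ K := ⟨_, rfl⟩
  have hWz : Wz ≤ Cfsg.Agent.Lib.Helper23.coreOf 2 K := by
    apply le_coreOf 2 (hWzdef ▸ inf_le_right)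
    · intro k hk
      rw [hWzdef]
      apply mem_normalizer_inf' ?_ (Subgroup.le_normalizer hk)
      apply Subgroup.mem_normalizer_fintype
      rintro _ ⟨y, hy, rfl⟩
      exact ⟨⟨k, hKH hk⟩ * y * ⟨k, hKH hk⟩⁻¹, hNzn.conj_mem y hy _, rfl⟩
    · have h1 : Nat.card Wz ∣ Nat.card Nz := by
        rw [hWzdef, ← Subgroup.card_map_of_injective H.subtype_injective]
        exact Subgroup.card_dvd_of_le inf_le_left
      exact Nat.Coprime.coprime_dvd_left h1 (coprime_two_of_odd' hNzodd)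
  rw [hO] at hWz
  rw [Subgroup.mem_centralizer_iff]
  intro k hk
  have h1 : u * k * u⁻¹ * k⁻¹ ∈ Wz := by
    rw [hWzdef]
    refine ⟨⟨⟨u, huH⟩ * ⟨k, hKH hk⟩ * ⟨u, huH⟩⁻¹ * ⟨k, hKH hk⟩⁻¹, hNz ⟨k, hKH hk⟩, rfl⟩, ?_⟩
    exact K.mul_mem ((Subgroup.mem_normalizer_iff.mp huK k).mp hk) (K.inv_mem hk)
  have h2 := hWz h1
  rw [Subgroup.mem_bot] at h2
  calc k * u = (u * k * u⁻¹ * k⁻¹)⁻¹ * (u * k) := by group
    _ = u * k := by rw [h2]; group

/-- The simple, faithful case. -/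
theorem sc_simple (n : ℕ) (ih : SCStmt.{u} n) {K J Q : Subgroup G}
    (h : SCHyp K J Q) (hcard : Nat.card K + Nat.card J ≤ n + 1)
    (hO : Cfsg.Agent.Lib.Helper23.coreOf 2 K = ⊥)
    (hsimple : ∀ M : Subgroup G, M ≤ K → K ≤ Subgroup.normalizer (M : Set G) → M = ⊥ ∨ M = K)
    (hQK : Q ≠ K) (hfaith : J ⊓ Subgroup.centralizer (K : Set G) = ⊥) :
    ∀ k ∈ K, ∀ j ∈ J, j * k = k * j := by
  have hJ : J = ⊥ := by
    by_contra hJ
    obtain ⟨u, huJ, hu2⟩ := h.res.exists_involution hJ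
    have h1 := sc_iso n ih h hcard hO hsimple hQK huJ hu2
    have h2 : u ∈ J ⊓ Subgroup.centralizer (K : Set G) := ⟨huJ, h1⟩
    rw [hfaith, Subgroup.mem_bot] at h2
    rw [h2, orderOf_one] at hu2
    omega
  intro k _ j hj
  rw [hJ, Subgroup.mem_bot] at hj
  rw [hj, one_mul, mul_one]

end Claim

/-! ### The main theorem -/

section Main

theorem mem_normalizer_centralizer' {G : Type*} [Group G] {A : Subgroup G} {y : G}
    (hy : y ∈ Subgroup.normalizer (A : Set G)) :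
    y ∈ Subgroup.normalizer ((Subgroup.centralizer (A : Set G) : Subgroup G) : Set G) := by
  have key : ∀ w : G, w ∈ Subgroup.normalizer (A : Set G) →
      ∀ z ∈ Subgroup.centralizer (A : Set G), w * z * w⁻¹ ∈ Subgroup.centralizer (A : Set G) := by
    intro w hw z hz
    rw [Subgroup.mem_centralizer_iff] at hz ⊢
    intro a ha
    have ha' : w⁻¹ * a * w ∈ A := by
      have h0 := (Subgroup.mem_normalizer_iff.mp (Subgroup.inv_mem _ hw) a).mp ha
      rwa [inv_inv] at h0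
    have h1 := hz _ ha'
    calc a * (w * z * w⁻¹) = w * ((w⁻¹ * a * w) * z) * w⁻¹ := by group
      _ = w * (z * (w⁻¹ * a * w)) * w⁻¹ := by rw [h1]
      _ = w * z * w⁻¹ * a := by group
  rw [Subgroup.mem_normalizer_iff]
  intro z
  constructor
  · exact key y hy z
  · intro hz
    have h0 := key y⁻¹ (Subgroup.inv_mem _ hy) _ hz
    have h2 : y⁻¹ * (y * z * y⁻¹) * y⁻¹⁻¹ = z := by group
    rwa [h2] at h0

theorem sc_step (n : ℕ) (ih : SCStmt.{u} n) : SCStmt.{u} (n + 1) := by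
  intro G _ _ K J Q h hcard
  classical
  haveI : Fact (Nat.Prime 2) := ⟨Nat.prime_two⟩
  obtain ⟨O, hOdef⟩ : ∃ O : Subgroup G, O = Cfsg.Agent.Lib.Helper23.coreOf 2 K := ⟨_, rfl⟩
  rw [← hOdef]
  have hOK : O ≤ K := hOdef ▸ Cfsg.Agent.Lib.Helper23.coreOf_le 2 K
  have hOodd : (Nat.card O).Coprime 2 := hOdef ▸ coreOf_coprime' 2 K
  have hNO : Subgroup.normalizer (K : Set G) ≤ Subgroup.normalizer (O : Set G) :=
    hOdef ▸ coreOf_normalizer_le 2 K
  have hcommK : ⁅K, J⁆ ≤ K := by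
    rw [Subgroup.commutator_le]
    intro k hk j hj
    have h1 := (Subgroup.mem_normalizer_iff.mp (h.norm hj) k⁻¹).mp (K.inv_mem hk)
    have h3 : ⁅k, j⁆ = k * (j * k⁻¹ * j⁻¹) := by
      rw [commutatorElement_def]
      group
    rw [h3]
    exact K.mul_mem hk h1
  by_cases hO : O = ⊥
  swap
  · -- the odd core is nontrivial: pass to the quotient
    obtain ⟨O₁, hO₁K, hKO₁, -, ⟨m, hm, hpow⟩, hcomm⟩ :=
      sc_quot n ih h (Subgroup.le_normalizer.trans hNO) (h.norm.trans hNO) hcard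
        (Or.inl (by rwa [inf_of_le_right hOK]))
    refine hcomm.trans ?_
    rw [hOdef]
    apply le_coreOf 2 hO₁K hKO₁
    apply card_coprime_two_of_pow (m * Nat.card O) (hm.mul (odd_of_coprime_two' hOodd))
    intro x hx
    rw [pow_mul]
    have h3 := pow_card_eq_one' (G := ↥O) (x := ⟨x ^ m, hpow x hx⟩)
    have h4 := congrArg Subtype.val h3
    rw [Subgroup.coe_pow] at h4
    exact h4
  · rw [hO]
    have hO' : Cfsg.Agent.Lib.Helper23.coreOf 2 K = ⊥ := hOdef ▸ hO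
    suffices hgoal : ∀ k ∈ K, ∀ j ∈ J, j * k = k * j by
      rw [le_bot_iff, Subgroup.commutator_eq_bot_iff_le_centralizer]
      intro k hk
      rw [Subgroup.mem_centralizer_iff]
      intro j hj
      exact hgoal k hk j hj
    have hofbot : ∀ {A : Subgroup G}, ⁅A, J⁆ ≤ ⊥ → ∀ a ∈ A, ∀ j ∈ J, j * a = a * j := by
      intro A hA a ha j hj
      have h1 := hA (Subgroup.commutator_mem_commutator ha hj)
      rw [Subgroup.mem_bot, commutatorElement_eq_one_iff_mul_comm] at h1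
      exact h1.symm
    by_cases hK : K = ⊥
    · intro k hk j _
      rw [hK, Subgroup.mem_bot] at hk
      rw [hk, mul_one, one_mul]
    have hex : ∃ m : ℕ, ∃ L : Subgroup G, L ≤ K ∧ L ≠ ⊥ ∧
        K ≤ Subgroup.normalizer (L : Set G) ∧ Nat.card L = m :=
      ⟨_, K, le_rfl, hK, Subgroup.le_normalizer, rfl⟩
    obtain ⟨L, hLK, hL1, hKL, hLm⟩ := Nat.find_spec hex
    have hmin : ∀ L' : Subgroup G, L' ≤ K → L' ≠ ⊥ → K ≤ Subgroup.normalizer (L' : Set G) →
        Nat.card L ≤ Nat.card L' := by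
      intro L' h1 h2 h3
      rw [hLm]
      exact Nat.find_min' hex ⟨L', h1, h2, h3, rfl⟩
    have hcoreK : ∀ W : Subgroup G, W ≤ K → K ≤ Subgroup.normalizer (W : Set G) →
        (Nat.card W).Coprime 2 → W = ⊥ := by
      intro W h1 h2 h3
      rw [eq_bot_iff, ← hO']
      exact le_coreOf 2 h1 h2 h3
    have hQL : IsSyl 2 (Q ⊓ L) L := h.syl.inf_of_normal hLK hKL
    have hQL1 : Q ⊓ L ≠ ⊥ := by
      intro h0
      exact hL1 (hcoreK L hLK hKL (hQL.card_coprime_of_eq_bot h0))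
    have hJL : J ≤ Subgroup.normalizer (L : Set G) := by
      apply le_normalizer_of_conj_mem
      intro j hj l hl
      obtain ⟨L', hL'def⟩ : ∃ L' : Subgroup G,
          L' = L ⊓ L.map (MulAut.conj j⁻¹).toMonoidHom := ⟨_, rfl⟩
      have hmemL' : ∀ y, y ∈ L.map (MulAut.conj j⁻¹).toMonoidHom ↔ j * y * j⁻¹ ∈ L := by
        intro y
        rw [mem_map_conj_iff, inv_inv]
      have hL'K : L' ≤ K := hL'def ▸ inf_le_left.trans hLK
      have hL'1 : L' ≠ ⊥ := by
        intro h0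
        apply hQL1
        rw [eq_bot_iff, ← h0, hL'def]
        intro q hq
        refine ⟨hq.2, (hmemL' q).mpr ?_⟩
        have h1 := Subgroup.mem_centralizer_iff.mp (h.cent hj) q hq.1
        have h2 : j * q * j⁻¹ = q := by
          rw [← h1]
          group
        rw [h2]
        exact hq.2
      have hKL' : K ≤ Subgroup.normalizer (L' : Set G) := by
        intro k hk
        rw [hL'def]
        apply mem_normalizer_inf' (hKL hk)
        apply Subgroup.mem_normalizer_fintype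
        intro y hy
        rw [SetLike.mem_coe, hmemL'] at hy ⊢
        have hk' : j * k * j⁻¹ ∈ K := (Subgroup.mem_normalizer_iff.mp (h.norm hj) k).mp hk
        have h1 := (Subgroup.mem_normalizer_iff.mp (hKL hk') _).mp hy
        have h2 : j * (k * y * k⁻¹) * j⁻¹ = (j * k * j⁻¹) * (j * y * j⁻¹) * (j * k * j⁻¹)⁻¹ := by
          group
        rw [h2]
        exact h1
      have hc := hmin L' hL'K hL'1 hKL'
      have hL'L : L' = L := Subgroup.eq_of_le_of_card_ge (hL'def ▸ inf_le_left) hc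
      have hl' : l ∈ L' := hL'L ▸ hl
      rw [hL'def] at hl'
      exact (hmemL' l).mp hl'.2
    by_cases hLK' : L = K
    · -- `K` has no proper nontrivial normal subgroup
      have hsimple : ∀ M : Subgroup G, M ≤ K → K ≤ Subgroup.normalizer (M : Set G) →
          M = ⊥ ∨ M = K := by
        intro M hM hn
        by_cases hM1 : M = ⊥
        · exact Or.inl hM1
        · right
          have h0 := hmin M hM hM1 hn
          rw [hLK'] at h0
          exact Subgroup.eq_of_le_of_card_ge hM h0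
      by_cases hQK : Q = K
      · intro k hk j hj
        rw [← hQK] at hk
        exact (Subgroup.mem_centralizer_iff.mp (h.cent hj) k hk).symm
      by_cases hfaith : J ⊓ Subgroup.centralizer (K : Set G) = ⊥
      · exact sc_simple n ih h hcard hO' hsimple hQK hfaith
      · obtain ⟨N, hNdef⟩ : ∃ N : Subgroup G, N = J ⊓ Subgroup.centralizer (K : Set G) :=
          ⟨_, rfl⟩
        have hKN : K ≤ Subgroup.normalizer (N : Set G) := by
          intro k hk
          apply Subgroup.mem_normalizer_fintype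
          intro y hy
          have hy' : y ∈ J ⊓ Subgroup.centralizer (K : Set G) := hNdef ▸ hy
          have h1 := Subgroup.mem_centralizer_iff.mp hy'.2 k hk
          have h2 : k * y * k⁻¹ = y := by
            rw [h1]
            group
          rw [h2]
          exact hy
        have hJN : J ≤ Subgroup.normalizer (N : Set G) := by
          intro j hj
          rw [hNdef]
          exact mem_normalizer_inf' (Subgroup.le_normalizer hj)
            (mem_normalizer_centralizer' (h.norm hj))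
        obtain ⟨O₁, hO₁K, hKO₁, -, ⟨m, hm, hpow⟩, hcomm⟩ := sc_quot n ih h hKN hJN hcard
          (Or.inr (by rw [hNdef, ← inf_assoc, inf_idem]; exact hfaith))
        have hZn : K ≤ Subgroup.normalizer
            ((K ⊓ Subgroup.centralizer (K : Set G) : Subgroup G) : Set G) := by
          intro k hk
          exact mem_normalizer_inf' (Subgroup.le_normalizer hk)
            (mem_normalizer_centralizer' (Subgroup.le_normalizer hk))
        have hZK : K ⊓ Subgroup.centralizer (K : Set G) = ⊥ := by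
          rcases hsimple (K ⊓ Subgroup.centralizer (K : Set G)) inf_le_left hZn with h0 | h0
          · exact h0
          · exfalso
            have hKc : K ≤ Subgroup.centralizer (K : Set G) := by
              intro k hk
              have h1 : k ∈ K ⊓ Subgroup.centralizer (K : Set G) := by
                rw [h0]
                exact hk
              exact h1.2
            have hQn : K ≤ Subgroup.normalizer (Q : Set G) := by
              intro k hk
              apply Subgroup.mem_normalizer_fintype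
              intro q hq
              have h1 := Subgroup.mem_centralizer_iff.mp (hKc hk) q (h.syl.1 hq)
              have h2 : k * q * k⁻¹ = q := by
                rw [← h1]
                group
              rw [h2]
              exact hq
            rcases hsimple Q h.syl.1 hQn with h1 | h1
            · exact hK (hcoreK K le_rfl Subgroup.le_normalizer
                (h.syl.card_coprime_of_eq_bot h1))
            · exact hQK h1
        have hO₁ : O₁ = ⊥ := by
          apply hcoreK O₁ hO₁K hKO₁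
          apply card_coprime_two_of_pow m hm
          intro x hx
          have h0 : x ^ m ∈ J ⊓ Subgroup.centralizer (K : Set G) := hNdef ▸ hpow x hx
          have h1 : x ^ m ∈ K ⊓ Subgroup.centralizer (K : Set G) :=
            ⟨K.pow_mem (hO₁K hx) m, h0.2⟩
          rw [hZK, Subgroup.mem_bot] at h1
          exact h1
        rw [hO₁] at hcomm
        exact hofbot hcomm
    · -- a proper minimal normal subgroup `L`
      have hLc := sc_sub n ih h hcard hLK hLK' hKL hJL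
      rw [hO'] at hLc
      have hJLc : ∀ l ∈ L, ∀ j ∈ J, j * l = l * j := hofbot hLc
      obtain ⟨C, hCdef⟩ : ∃ C : Subgroup G, C = K ⊓ Subgroup.centralizer (L : Set G) :=
        ⟨_, rfl⟩
      have hcommC : ⁅K, J⁆ ≤ C := by
        rw [hCdef]
        exact le_inf hcommK (commutator_le_centralizer_of_centralizes hKL hJLc)
      have hnormC : ∀ y : G, y ∈ Subgroup.normalizer (K : Set G) →
          y ∈ Subgroup.normalizer (L : Set G) → y ∈ Subgroup.normalizer (C : Set G) := by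
        intro y hyK hyL
        rw [hCdef]
        exact mem_normalizer_inf' hyK (mem_normalizer_centralizer' hyL)
      by_cases hCK : C = K
      · have hLcent : ∀ l ∈ L, ∀ k ∈ K, l * k = k * l := by
          intro l hl k hk
          have h0 : k ∈ C := hCK ▸ hk
          rw [hCdef] at h0
          exact Subgroup.mem_centralizer_iff.mp h0.2 l hl
        obtain ⟨O₁, hO₁K, hKO₁, hJO₁, ⟨m, hm, hpow⟩, hcomm⟩ := sc_quot n ih h hKL hJL hcard
          (Or.inl (by rwa [inf_of_le_right hLK]))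
        by_cases hO₁ : O₁ = K
        · have hQc : ∀ q ∈ Q, ∀ k ∈ K, q * k = k * q := by
            intro q hq k hk
            obtain ⟨a, ha⟩ := h.syl.2.1 ⟨q, hq⟩
            have hqa : q ^ 2 ^ a = 1 := by
              have h0 := congrArg Subtype.val ha
              rw [Subgroup.coe_pow] at h0
              exact h0
            have hqm : q ^ m ∈ L := hpow q (hO₁ ▸ h.syl.1 hq)
            exact (commute_of_pow_commute hm hqa (hLcent _ hqm k hk)).eq
          have hKQ := le_of_central_sylow h.syl hQc hO'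
          intro k hk j hj
          exact (Subgroup.mem_centralizer_iff.mp (h.cent hj) k (hKQ hk)).symm
        · have hc := sc_sub n ih h hcard hO₁K hO₁ hKO₁ hJO₁
          rw [hO'] at hc
          exact centralizes_of_commutator_le hcomm (hofbot hc) h.res.perf
      · have hc := sc_sub n ih h hcard (hCdef ▸ inf_le_left) hCK
          (fun k hk => hnormC k (Subgroup.le_normalizer hk) (hKL hk))
          (fun j hj => hnormC j (h.norm hj) (hJL hj))
        rw [hO'] at hc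
        exact centralizes_of_commutator_le hcommC (hofbot hc) h.res.perf

theorem sc_all : ∀ n : ℕ, SCStmt.{u} n := by
  intro n
  induction n with
  | zero =>
    intro G _ _ K J Q _ hcard
    exfalso
    have h1 : 0 < Nat.card K := Nat.card_pos
    omega
  | succ n ih => exact sc_step n ih

/-- **Main theorem.** Let `K`, `J`, `Q` be subgroups of a finite group `G` such that `J`
normalizes `K`, `Q` is a Sylow 2-subgroup of `K` centralized by `J`, and `J` is perfect and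
generated by its 2-elements. Then `⁅K, J⁆ ≤ O(K)`. -/
theorem centralizes_sylow_commutator_le {G : Type u} [Group G] [Finite G] {K J Q : Subgroup G}
    (hJK : J ≤ Subgroup.normalizer (K : Set G)) (hQK : Q ≤ K) (hQ : IsPGroup 2 Q)
    (hQs : ¬ 2 ∣ Q.relIndex K) (hJQ : J ≤ Subgroup.centralizer (Q : Set G))
    (hJperf : ⁅J, J⁆ = J)
    (hJgen : J ≤ Subgroup.closure {x : G | x ∈ J ∧ ∃ k : ℕ, x ^ 2 ^ k = 1}) :
    ⁅K, J⁆ ≤ (Cfsg.pPrimeCore 2 ↥K).map K.subtype :=
  sc_all _ G K J Q ⟨hJK, ⟨hQK, hQ, hQs⟩, hJQ, ⟨hJperf, hJgen⟩⟩ le_rfl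

end Main

end Cfsg.Agent.Lib.Helper22
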